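import Cfsg.Agent.Lib.DGN.Gen

/-! From the conjugation action to the adjoint action, and the resulting line. -/

namespace Cfsg.Lib.DGN

open Module LinearMap Submodule

variable {K ι I : Type*} [Field K] [Fintype ι] [DecidableEq ι] [Fintype I]

/-- The generic element acting by conjugation. -/
noncomputable def cu (Y : I → K) (S : I → Matrix ι ι K) (q : ℕ) : Module.End K (Matrix ι ι K) :=
  ∑ g, Y g • (mulLeft K (S g) * mulRight K (S g) ^ q - 1)

/-- The generic element. -/
noncomputable def th (Y : I → K) (S : I → Matrix ι ι K) : Matrix ι ι K := ∑ g, Y g • (S g - 1)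

theorem cu_apply (Y : I → K) (S : I → Matrix ι ι K) (q : ℕ) (T : Matrix ι ι K) :
    cu Y S q T = ∑ g, Y g • (S g * T * S g ^ q - T) := by
  simp [cu, pow_mulRight, mul_assoc]

variable {q : ℕ} [hp : Fact (q + 1).Prime] [CharP K (q + 1)] {Y : I → K} {S : I → Matrix ι ι K}

theorem th_pow (hc : ∀ g h, Commute (S g) (S h)) (hS : ∀ g, S g ^ (q + 1) = 1) :
    th Y S ^ (q + 1) = 0 := by
  refine sum_pow_p_eq_zero (K := K) (q + 1) _ _ (fun a b => ?_) fun a => ?_
  · exact (((hc a b).sub_right (Commute.one_right _)).sub_left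
      (Commute.one_left _)).smul_left _ |>.smul_right _
  · rw [smul_pow, sub_pow_p (K := K) (q + 1) (Commute.one_right _), hS, one_pow, sub_self,
      smul_zero]

theorem ker_ad_le (hc : ∀ g h, Commute (S g) (S h)) (hS : ∀ g, S g ^ (q + 1) = 1)
    (hg : ker (cu Y S q ^ q) ≤ range (cu Y S q) ⊔ span K {1}) (h1 : 1 ∉ range (cu Y S q)) :
    ¬ (q + 1) ∣ Fintype.card ι ∧ ker (mulLeft K (th Y S) - mulRight K (th Y S)) ≤
      range ((mulLeft K (th Y S) - mulRight K (th Y S)) ^ q) ⊔ span K {1} := by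
  classical
  have hq : q ≠ 0 := by
    rintro rfl
    exact Nat.not_prime_one hp.out
  let A := Algebra.adjoin K
    (Set.range (fun g => mulLeft K (S g)) ∪ Set.range fun g => mulRight K (S g))
  have hA : ∀ x ∈ A, ∀ y ∈ A, Commute x y := fun x hx y hy => by
    refine Algebra.commute_of_mem_adjoin_of_forall_mem_commute hy fun b hb => ?_
    refine (Algebra.commute_of_mem_adjoin_of_forall_mem_commute hx fun a ha => ?_).symm
    rcases ha with ⟨g, rfl⟩ | ⟨g, rfl⟩ <;> rcases hb with ⟨h, rfl⟩ | ⟨h, rfl⟩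
    · exact LinearMap.ext fun T => by simp [← mul_assoc, (hc g h).eq]
    · exact (commute_mulLeft_right _ _).symm
    · exact commute_mulLeft_right _ _
    · exact LinearMap.ext fun T => by simp [mul_assoc, (hc g h).eq]
  have hL : ∀ g, mulLeft K (S g) ∈ A := fun g => Algebra.subset_adjoin (Or.inl ⟨g, rfl⟩)
  have hR : ∀ g, mulRight K (S g) ∈ A := fun g => Algebra.subset_adjoin (Or.inr ⟨g, rfl⟩)
  let β : I → Module.End K (Matrix ι ι K) := fun g => Y g • (mulLeft K (S g) - mulRight K (S g))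
  let c : Finset I → I → Module.End K (Matrix ι ι K) := fun J g =>
    if g ∈ J then 1 else mulRight K (S g) ^ q
  let α : Finset I → Module.End K (Matrix ι ι K) := fun J => ∑ g, β g * c J g
  have hβ : ∀ g, β g ∈ A := fun g => A.smul_mem (A.sub_mem (hL g) (hR g)) _
  have hcA : ∀ J g, c J g ∈ A := fun J g => by
    simp only [c]; split_ifs
    exacts [A.one_mem, A.pow_mem (hR g) q]
  have hα : ∀ J, α J ∈ A := fun J => A.sum_mem fun g _ => A.mul_mem (hβ g) (hcA J g)
  have hRp : ∀ g, mulRight K (S g) ^ (q + 1) = 1 := fun g => by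
    rw [pow_mulRight, hS, mulRight_one]; rfl
  have hβp : ∀ g, β g ^ (q + 1) = 0 := fun g => by
    simp only [β]
    rw [smul_pow, sub_pow_p (K := K) (q + 1) (hA _ (hL g) _ (hR g)), hRp, pow_mulLeft, hS,
      mulLeft_one, ← Module.End.one_eq_id, sub_self, smul_zero]
  have hαp : ∀ J, α J ^ (q + 1) = 0 := fun J =>
    sum_pow_p_eq_zero (K := K) (q + 1) _ _
      (fun a b => hA _ (A.mul_mem (hβ a) (hcA J a)) _ (A.mul_mem (hβ b) (hcA J b))) fun a => by
        rw [(hA _ (hβ a) _ (hcA J a)).mul_pow, hβp, zero_mul]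
  have hβ1 : ∀ g, β g 1 = 0 := fun g => by simp [β]
  have hα1 : ∀ J, α J 1 = 0 := fun J => by
    simp only [α, LinearMap.sum_apply]
    refine Finset.sum_eq_zero fun g _ => ?_
    rw [(hA _ (hβ g) _ (hcA J g)).eq, Module.End.mul_apply, hβ1, map_zero]
  have h0 : α ∅ = cu Y S q := Finset.sum_congr rfl fun g _ => by
    simp only [β, c, Finset.notMem_empty, if_false]
    rw [smul_mul_assoc, sub_mul, ← pow_succ', hRp]
  have hu : α Finset.univ = mulLeft K (th Y S) - mulRight K (th Y S) := LinearMap.ext fun T => by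
    simp [α, β, c, th, Finset.sum_mul, Finset.mul_sum, ← Finset.sum_sub_distrib, smul_sub, sub_mul,
      mul_sub]
  rw [← h0] at hg h1
  have e1 := finrank_le_of_good (hαp ∅) (hα1 ∅) h1 hg
  have e2 := le_finrank_of_not_mem (hαp ∅) hq (hα1 ∅) h1
  have hn : ¬ (q + 1) ∣ Fintype.card ι := fun h => by
    have h2 : (q + 1) ∣ 1 + (q + 1) * rk (α ∅) q := by
      rw [← le_antisymm e1 e2, Module.finrank_matrix, finrank_self, mul_one]
      exact h.mul_right _
    exact hp.out.not_dvd_one ((Nat.dvd_add_left (dvd_mul_right _ _)).1 h2)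
  have hnot : ∀ J, 1 ∉ range (α J) := by
    rintro J ⟨T, hT⟩
    have h2 := congrArg Matrix.trace hT
    simp only [α, LinearMap.sum_apply, Matrix.trace_sum, Module.End.mul_apply, β,
      LinearMap.smul_apply, LinearMap.sub_apply, mulLeft_apply, mulRight_apply, Matrix.trace_smul,
      Matrix.trace_sub, Matrix.trace_mul_comm (S _), sub_self, smul_zero, Finset.sum_const_zero,
      Matrix.trace_one] at h2
    exact hn ((CharP.cast_eq_zero_iff K (q + 1) _).1 h2.symm)
  have key : ∀ J, finrank K (Matrix ι ι K) ≤ 1 + (q + 1) * rk (α J) q := by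
    intro J
    induction J using Finset.induction_on with
    | empty => exact e1
    | insert g J hgJ ih =>
      have hγ : 1 - mulRight K (S g) ^ q ∈ A := A.sub_mem A.one_mem (A.pow_mem (hR g) q)
      have h2 : α (insert g J) = α J + β g * (1 - mulRight K (S g) ^ q) := by
        simp only [α]
        rw [← Finset.add_sum_erase _ _ (Finset.mem_univ g),
          ← Finset.add_sum_erase _ (fun g => β g * c J g) (Finset.mem_univ g)]
        have h3 : ∑ x ∈ Finset.univ.erase g, β x * c (insert g J) x =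
            ∑ x ∈ Finset.univ.erase g, β x * c J x := Finset.sum_congr rfl fun x hx => by
          simp [c, Finset.ne_of_mem_erase hx]
        rw [h3]
        simp only [c, Finset.mem_insert_self, if_true, if_neg hgJ, mul_sub]
        abel
      rw [h2]
      refine ih.trans (Nat.add_le_add_left (Nat.mul_le_mul_left _ ?_) _)
      refine rk_le_rk_add (hA _ (hα J) _ (hβ g)) (hA _ (hα J) _ hγ) (hA _ (hβ g) _ hγ) (hαp J)
        (hβp g) ?_ (hα1 J) (hβ1 g) (good_of_finrank_le (hαp J) hq (hα1 J) (hnot J) ih)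
      rw [sub_pow_p (K := K) (q + 1) (Commute.one_left _), one_pow, ← pow_mul, mul_comm, pow_mul,
        hRp, one_pow, sub_self]
  rw [← hu]
  exact ⟨hn, ker_le_of_finrank_le (hαp _) hq (hα1 _) (hnot _) (key _)⟩

omit hp [CharP K (q + 1)] in
theorem ad_pow_mulVec (θ T : Matrix ι ι K) {w : ι → K} (hw : θ.mulVec w = 0) (j : ℕ) :
    (((mulLeft K θ - mulRight K θ) ^ j) T).mulVec w = (θ ^ j).mulVec (T.mulVec w) := by
  induction j with
  | zero => simp
  | succ j ih =>
    rw [pow_succ', pow_succ', Module.End.mul_apply, LinearMap.sub_apply, mulLeft_apply,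
      mulRight_apply, Matrix.sub_mulVec, ← Matrix.mulVec_mulVec, ← Matrix.mulVec_mulVec,
      ← Matrix.mulVec_mulVec, ih, hw, Matrix.mulVec_zero, sub_zero]

omit hp [CharP K (q + 1)] in
/-- The kernel of `θ` modulo the image of `θ ^ q` is a line. -/
theorem exists_line {θ : Matrix ι ι K} (h : θ ^ (q + 1) = 0) (hn : ¬ (q + 1) ∣ Fintype.card ι)
    (hk : ker (mulLeft K θ - mulRight K θ) ≤
      range ((mulLeft K θ - mulRight K θ) ^ q) ⊔ span K {1}) :
    ∃ x : ι → K, θ.mulVec x = 0 ∧ (∀ z, (θ ^ q).mulVec z ≠ x) ∧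
      ∀ w, θ.mulVec w = 0 → ∃ (c : K) (z : ι → K), w = c • x + (θ ^ q).mulVec z := by
  classical
  set t := Matrix.toLinAlgEquiv' θ with ht
  have htp : ∀ (j : ℕ) w, (t ^ j) w = (θ ^ j).mulVec w := fun j w => by
    rw [ht, ← map_pow, Matrix.toLinAlgEquiv'_apply]
  have ht0 : t ^ (q + 1) = 0 := by rw [ht, ← map_pow, h, map_zero]
  have h1 : ¬ ker t ≤ range (t ^ q) := fun h0 => hn (by
    have := le_antisymm (finrank_le_of_ker_le ht0 h0) (mul_rk_le_finrank ht0)
    rw [finrank_fintype_fun_eq_card] at this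
    exact ⟨_, this⟩)
  obtain ⟨x, hx, hx'⟩ := SetLike.not_le_iff_exists.1 h1
  have hex : ∃ j, x ∉ range (t ^ j) := ⟨q, hx'⟩
  obtain ⟨j, hj⟩ : ∃ j, Nat.find hex = j + 1 := Nat.exists_eq_add_one_of_ne_zero fun h0 => by
    have := Nat.find_spec hex
    rw [h0, pow_zero] at this
    exact this ⟨x, rfl⟩
  have hj1 : x ∉ range (t ^ (j + 1)) := hj ▸ Nat.find_spec hex
  obtain ⟨y, hy⟩ : x ∈ range (t ^ j) := not_not.1 (Nat.find_min hex (by omega))
  obtain ⟨φ, hφ, hφ'⟩ := Submodule.exists_le_ker_of_notMem hj1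
  let E : Module.End K (ι → K) :=
    ∑ i ∈ Finset.range (j + 1), ((φ x)⁻¹ • φ ∘ₗ (t ^ i)).smulRight ((t ^ (j - i)) y)
  have hE : ∀ w, E w = ∑ i ∈ Finset.range (j + 1), ((φ x)⁻¹ * φ ((t ^ i) w)) • (t ^ (j - i)) y :=
    fun w => by simp [E]
  have hEt : ∀ w, t (E w) = E (t w) := fun w => by
    rw [hE, hE, map_sum, Finset.sum_range_succ', Finset.sum_range_succ, map_smul, Nat.sub_zero, hy,
      mem_ker.1 hx, smul_zero, ← Module.End.mul_apply (t ^ j), ← pow_succ,
      mem_ker.1 (hφ' ⟨w, rfl⟩), mul_zero, zero_smul]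
    congr 1
    refine Finset.sum_congr rfl fun i hi => ?_
    rw [map_smul, ← Module.End.mul_apply t, ← pow_succ', pow_succ t i, Module.End.mul_apply]
    have := Finset.mem_range.1 hi
    congr 3
    omega
  have hEk : ∀ w, t w = 0 → E w = ((φ x)⁻¹ * φ w) • x := fun w hw => by
    rw [hE, Finset.sum_range_succ', Finset.sum_eq_zero, zero_add, Nat.sub_zero, hy]
    · rfl
    · intro i _
      rw [pow_succ, Module.End.mul_apply, hw, map_zero, map_zero, mul_zero, zero_smul]
  have hm : Matrix.toLinAlgEquiv'.symm E ∈ ker (mulLeft K θ - mulRight K θ) := by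
    rw [mem_ker, LinearMap.sub_apply, mulLeft_apply, mulRight_apply, sub_eq_zero]
    refine Matrix.toLinAlgEquiv'.injective ?_
    rw [map_mul, map_mul, AlgEquiv.apply_symm_apply]
    exact LinearMap.ext hEt
  obtain ⟨_, ⟨T, rfl⟩, z, hz, hs⟩ := mem_sup.1 (hk hm)
  obtain ⟨c, rfl⟩ := mem_span_singleton.1 hz
  have h2 : ∀ w, t w = 0 → ((φ x)⁻¹ * φ w) • x = (θ ^ q).mulVec (T.mulVec w) + c • w := by
    intro w hw
    rw [← hEk w hw, ← ad_pow_mulVec θ T hw, ← Matrix.toLinAlgEquiv'.apply_symm_apply E, ← hs,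
      Matrix.toLinAlgEquiv'_apply, Matrix.add_mulVec, Matrix.smul_mulVec, Matrix.one_mulVec]
  have hc : c = 1 := by
    by_contra hc
    have h3 := h2 x hx
    rw [inv_mul_cancel₀ hφ, ← htp, ← sub_eq_iff_eq_add, ← sub_smul] at h3
    refine hx' ?_
    have h4 : x = (1 - c)⁻¹ • ((1 - c) • x) := by
      rw [smul_smul, inv_mul_cancel₀ (sub_ne_zero.2 (Ne.symm hc)), one_smul]
    rw [h4, h3]
    exact smul_mem _ _ ⟨_, rfl⟩
  refine ⟨x, hx, fun z hz => hx' ⟨z, by rw [htp, hz]⟩, fun w hw => ⟨(φ x)⁻¹ * φ w, -T.mulVec w, ?_⟩⟩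
  rw [h2 w hw, hc, one_smul, Matrix.mulVec_neg]
  abel

end Cfsg.Lib.DGN
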