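import Cfsg.Agent.Lib.DGN.Ad

/-! A group acting on an endo-permutation module of an elementary abelian group has a linear
character detecting the scalars. -/

namespace Cfsg.Lib.DGN

open Module LinearMap Submodule

theorem exists_unit_of_cocycle {A K Γ : Type*} [CommRing A] [IsDomain A]
    [UniqueFactorizationMonoid A] [Field K] [Algebra A K] [IsFractionRing A K] [Group Γ] [Finite Γ]
    (a : Γ → A →+* A) (σ : Γ → K →+* K)
    (hσ : ∀ x r, σ x (algebraMap A K r) = algebraMap A K (a x r)) (ha1 : ∀ r, a 1 r = r)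
    (ham : ∀ x y r, a (x * y) r = a x (a y r)) (ν : Γ → K) (h0 : ∀ x, ν x ≠ 0)
    (hν : ∀ x y, ν (x * y) = ν x * σ x (ν y)) :
    ∃ g : A, g ≠ 0 ∧ ∀ x, ∃ u : Aˣ,
      ν x * algebraMap A K (a x g) = algebraMap A K u * algebraMap A K g := by
  classical
  haveI := Fintype.ofFinite Γ
  have hinj := IsFractionRing.injective A K
  obtain ⟨⟨d₀, hd₀⟩, hb⟩ := IsLocalization.exist_integer_multiples_of_finite (nonZeroDivisors A) ν
  choose b hb using hb
  have hai : ∀ x r, a x⁻¹ (a x r) = r := fun x r => by rw [← ham, inv_mul_cancel, ha1]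
  have hai' : ∀ x r, a x (a x⁻¹ r) = r := fun x r => by rw [← ham, mul_inv_cancel, ha1]
  set d := ∏ y, a y d₀ with hd
  have hda : ∀ x, a x d = d := fun x => by
    rw [hd, map_prod]
    exact Fintype.prod_equiv (Equiv.mulLeft x) _ _ fun y => (ham x y d₀).symm
  have hd0 : d ≠ 0 := Finset.prod_ne_zero_iff.2 fun y _ h =>
    nonZeroDivisors.ne_zero hd₀ (by rw [← hai y d₀, h, map_zero])
  obtain ⟨d', hd'⟩ : d₀ ∣ d := by
    have := Finset.dvd_prod_of_mem (fun y => a y d₀) (Finset.mem_univ 1)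
    rwa [ha1] at this
  let n : Γ → A := fun x => d' * b x
  have hn : ∀ x, algebraMap A K (n x) = algebraMap A K d * ν x := fun x => by
    simp only [n]
    rw [map_mul, hb, hd', map_mul, Algebra.smul_def]; ring
  have hnn : ∀ x y, n y * a y (n x) = d * n (y * x) := fun x y => hinj (by
    rw [map_mul _ (n y), map_mul _ d, ← hσ, hn, hn, hn, map_mul (σ y), hσ, hda, hν]; ring)
  letI := UniqueFactorizationMonoid.normalizationMonoid (α := A)
  letI := UniqueFactorizationMonoid.toNormalizedGCDMonoid A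
  let g := Finset.univ.gcd n
  have hg : ∀ r c, c ∣ r * g ↔ ∀ x, c ∣ r * n x := fun r c => by
    rw [← (Finset.gcd_mul_left' Finset.univ n r).dvd_iff_dvd_right, Finset.dvd_gcd_iff]
    simp
  have hgn : ∀ x, g ∣ n x := fun x => Finset.gcd_dvd (Finset.mem_univ x)
  have hdK : algebraMap A K d ≠ 0 := (map_ne_zero_iff _ hinj).2 hd0
  refine ⟨g, fun h => ?_, fun y => ?_⟩
  · have := hn 1
    rw [show n 1 = 0 from zero_dvd_iff.1 (h ▸ hgn 1), map_zero] at this
    exact mul_ne_zero hdK (h0 1) this.symm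
  · have h1 : n y * a y g ∣ d * g := (hg _ _).2 fun x => by
      have := hnn (y⁻¹ * x) y
      rw [mul_inv_cancel_left] at this
      rw [← this]
      exact mul_dvd_mul_left _ (map_dvd _ (hgn _))
    have h2 : d * g ∣ n y * a y g := by
      have h3 : a y⁻¹ (d * g) ∣ a y⁻¹ (n y) * g := (hg _ _).2 fun x => by
        rw [← hai y (n x), ← map_mul, hnn]
        exact map_dvd _ (mul_dvd_mul_left _ (hgn _))
      have := map_dvd (a y) h3
      rwa [hai', map_mul (a y), hai'] at this
    obtain ⟨u, hu⟩ := associated_of_dvd_dvd h2 h1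
    refine ⟨u, mul_left_cancel₀ hdK ?_⟩
    rw [← mul_assoc, ← hn, ← map_mul, ← hu, map_mul, map_mul]; ring

section BaseChange
variable {k K ι Ω V : Type*} [Field k] [Field K] [Algebra k K] [Fintype ι] [DecidableEq ι]
  [AddCommGroup V] [Module K V]

theorem ext_map {f g : Matrix ι ι K →ₗ[K] V}
    (h : ∀ T : Matrix ι ι k, f (T.map (algebraMap k K)) = g (T.map (algebraMap k K))) : f = g :=
  (Matrix.stdBasis K ι ι).ext fun i => by
    have := h (Matrix.single i.1 i.2 1)
    rwa [Matrix.map_single, map_one, ← Matrix.stdBasis_eq_single] at this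

omit [Fintype ι] [DecidableEq ι] in
theorem ext_fun [Finite Ω] {f g : (Ω → K) →ₗ[K] V}
    (h : ∀ w : Ω → k, f (algebraMap k K ∘ w) = g (algebraMap k K ∘ w)) : f = g := by
  classical
  refine (Pi.basisFun K Ω).ext fun i => ?_
  have h1 : algebraMap k K ∘ Pi.single i (1 : k) = Pi.single i 1 := funext fun a => by
    simp [Pi.single_apply, apply_ite]
  have := h (Pi.single i 1)
  rwa [h1, ← Pi.basisFun_apply] at this

theorem exists_bc (i : Matrix ι ι k →ₗ[k] (Ω → k)) : ∃ i' : Matrix ι ι K →ₗ[K] (Ω → K),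
    ∀ T : Matrix ι ι k, i' (T.map (algebraMap k K)) = algebraMap k K ∘ i T := by
  refine ⟨(Matrix.stdBasis K ι ι).constr K fun x => algebraMap k K ∘ i (Matrix.single x.1 x.2 1),
    fun T => ?_⟩
  induction T using Matrix.induction_on' with
  | h_zero => ext; simp
  | h_add a b ha hb =>
    rw [Matrix.map_add _ (map_add _), map_add, ha, hb, map_add]; ext; simp
  | h_std_basis a b c =>
    have h1 : (Matrix.single a b c).map (algebraMap k K) =
        algebraMap k K c • Matrix.stdBasis K ι ι (a, b) := by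
      rw [Matrix.map_single, Matrix.stdBasis_eq_single, Matrix.smul_single, smul_eq_mul, mul_one]
    have h2 : Matrix.single a b c = c • Matrix.single a b (1 : k) := by
      rw [Matrix.smul_single, smul_eq_mul, mul_one]
    rw [h1, map_smul, Basis.constr_basis, h2, map_smul]
    ext; simp

omit [DecidableEq ι] [Fintype ι] in
theorem exists_bc' [Finite Ω] (j : (Ω → k) →ₗ[k] Matrix ι ι k) :
    ∃ j' : (Ω → K) →ₗ[K] Matrix ι ι K,
      ∀ w : Ω → k, j' (algebraMap k K ∘ w) = (j w).map (algebraMap k K) := by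
  classical
  haveI := Fintype.ofFinite Ω
  refine ⟨(Pi.basisFun K Ω).constr K fun x => (j (Pi.single x 1)).map (algebraMap k K),
    fun w => ?_⟩
  rw [Basis.constr_apply_fintype]
  conv_rhs => rw [pi_eq_sum_univ' w, map_sum]
  ext a b
  simp only [map_smul]
  simp [Matrix.sum_apply, Algebra.smul_def]

end BaseChange

theorem core {k ι I Ω Γ : Type*} [Field k] [Fintype ι] [DecidableEq ι] [Fintype I] [Finite Ω]
    [Group Γ] [Finite Γ] {q : ℕ} [Fact (q + 1).Prime] [CharP k (q + 1)]
    (s : I → Matrix ι ι k) (hc : ∀ g h, Commute (s g) (s h)) (hs : ∀ g, s g ^ (q + 1) = 1)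
    (P : I → Equiv.Perm Ω) (hPc : ∀ g h, Commute (P g) (P h)) (hP : ∀ g, P g ^ (q + 1) = 1)
    (hf : ∀ a, ∃ g, P g a ≠ a) (i : Matrix ι ι k →ₗ[k] (Ω → k)) (j : (Ω → k) →ₗ[k] Matrix ι ι k)
    (hi : ∀ g T, i (s g * T * s g ^ q) = pm k (P g) (i T))
    (hj : ∀ g w, j (pm k (P g) w) = s g * j w * s g ^ q)
    (hij : ∀ T, ∃ c : k, T = c • 1 + j (i T))
    (τ : Matrix ι ι k →ₗ[k] k) (hτ : ∀ g T, τ (s g * T * s g ^ q) = τ T) (hτ1 : τ 1 ≠ 0)
    (a : Γ →* Equiv.Perm I) (ρ : Γ →* Matrix ι ι k) (hρ : ∀ x g, ρ x * s g = s (a x g) * ρ x) :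
    ∃ ν : Γ →* k, ∀ x c, ρ x = c • 1 → a x = 1 → ν x = c := by
  let A := MvPolynomial I k
  let K := FractionRing A
  let φ := algebraMap k K
  haveI : CharP K (q + 1) := charP_of_injective_algebraMap φ.injective (q + 1)
  let S : I → Matrix ι ι K := fun g => (s g).map φ
  have hSc : ∀ g h, Commute (S g) (S h) := fun g h => (hc g h).map φ.mapMatrix
  have hS : ∀ g, S g ^ (q + 1) = 1 := fun g => by
    rw [← Matrix.map_pow, hs, Matrix.map_one _ (map_zero _) (map_one _)]
  have hm : ∀ g (T : Matrix ι ι k), S g * T.map φ * S g ^ q = (s g * T * s g ^ q).map φ :=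
    fun g T => by rw [Matrix.map_mul, Matrix.map_mul, Matrix.map_pow]
  obtain ⟨i', hi'⟩ := exists_bc (K := K) i
  obtain ⟨j', hj'⟩ := exists_bc' (K := K) j
  obtain ⟨τ', hτ'⟩ := exists_bc (K := K) (LinearMap.pi fun _ : Unit => τ)
  let Y := gy K k (I := I)
  have h1 : i' ∘ₗ cu Y S q = gu Y P ∘ₗ i' := ext_map (k := k) fun T => by
    rw [comp_apply, comp_apply, cu_apply, map_sum, gu, LinearMap.sum_apply]
    refine Finset.sum_congr rfl fun g _ => ?_
    rw [map_smul, map_sub, hm, hi', hi', hi, LinearMap.smul_apply, LinearMap.sub_apply]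
    rfl
  have h2 : j' ∘ₗ gu Y P = cu Y S q ∘ₗ j' := ext_fun (k := k) fun w => by
    rw [comp_apply, comp_apply, cu_apply, gu, LinearMap.sum_apply, map_sum]
    refine Finset.sum_congr rfl fun g _ => ?_
    rw [LinearMap.smul_apply, LinearMap.sub_apply, map_smul, map_sub, Module.End.one_apply, hj', hm,
      ← hj, ← hj' (pm k (P g) w)]
    rfl
  have h3 : (span K {1}).mkQ = (span K {1}).mkQ ∘ₗ j' ∘ₗ i' := ext_map (k := k) fun T => by
    obtain ⟨c, hc⟩ := hij T
    rw [comp_apply, comp_apply, hi', hj', mkQ_apply, mkQ_apply, Submodule.Quotient.eq,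
      ← Matrix.map_sub _ (map_sub _), sub_eq_of_eq_add hc]
    refine mem_span_singleton.2 ⟨φ c, ?_⟩
    ext a b
    simp [Matrix.one_apply, apply_ite φ, φ]
  have h4 : τ' ∘ₗ cu Y S q = 0 := ext_map (k := k) fun T => by
    rw [comp_apply, cu_apply, map_sum]
    refine Finset.sum_eq_zero fun g _ => ?_
    rw [map_smul, map_sub, hm, hτ', hτ']
    ext
    simp [hτ]
  have h5 : ∀ (n : ℕ) T, i' ((cu Y S q ^ n) T) = (gu Y P ^ n) (i' T) := by
    intro n
    induction n with
    | zero => intro T; rfl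
    | succ n ih =>
      intro T
      rw [pow_succ', pow_succ', Module.End.mul_apply, Module.End.mul_apply, ← ih]
      exact LinearMap.congr_fun h1 _
  obtain ⟨hn, hk⟩ := ker_ad_le (Y := Y) hSc hS (fun T hT => by
    obtain ⟨z, hz⟩ := ker_gu_le (k := k) hPc hP hf
      (show i' T ∈ ker (gu Y P ^ q) by rw [mem_ker, ← h5, mem_ker.1 hT, map_zero])
    have h6 := LinearMap.congr_fun h3 T
    rw [comp_apply, comp_apply, mkQ_apply, mkQ_apply, Submodule.Quotient.eq] at h6
    refine mem_sup.2 ⟨j' (i' T), ⟨j' z, ?_⟩, _, h6, by abel⟩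
    rw [← hz]
    exact (LinearMap.congr_fun h2 z).symm) (by
    rintro ⟨T, hT⟩
    have h6 := LinearMap.congr_fun h4 T
    rw [comp_apply, hT, ← Matrix.map_one φ (map_zero _) (map_one _), hτ'] at h6
    exact hτ1 (φ.injective (by simpa using congrFun h6 ())))
  obtain ⟨x₀, hx₀, hx₁, hx₂⟩ := exists_line (th_pow hSc hS) hn hk
  set θ := th Y S with hθ
  let α : Γ → A ≃ₐ[k] A := fun x => MvPolynomial.renameEquiv k (a x)
  let σ : Γ → K ≃ₐ[k] K := fun x => IsFractionRing.algEquivOfAlgEquiv (α x)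
  have hσ : ∀ x r, σ x (algebraMap A K r) = algebraMap A K (α x r) := fun x r =>
    IsFractionRing.algEquivOfAlgEquiv_algebraMap _ _
  have hα1 : ∀ x, a x = 1 → ∀ r, α x r = r := fun x hx r => by
    change MvPolynomial.rename (a x) r = r
    rw [hx]
    exact MvPolynomial.rename_id_apply r
  have hαm : ∀ x y r, α (x * y) r = α x (α y r) := fun x y r => by
    change MvPolynomial.rename (a (x * y)) r = MvPolynomial.rename (a x) (MvPolynomial.rename (a y) r)
    rw [MvPolynomial.rename_rename, map_mul]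
    rfl
  have hσe : ∀ (f g : K →+* K), (∀ r, f (algebraMap A K r) = g (algebraMap A K r)) → f = g :=
    fun f g h => IsLocalization.ringHom_ext (nonZeroDivisors A) (RingHom.ext h)
  have hσ1 : ∀ x, a x = 1 → ∀ r, σ x r = r := fun x hx =>
    RingHom.congr_fun (hσe (σ x) (RingHom.id K) fun r => by
      rw [RingHom.coe_coe, hσ, hα1 x hx]; rfl)
  have hσm : ∀ x y r, σ (x * y) r = σ x (σ y r) := fun x y =>
    RingHom.congr_fun (hσe (σ (x * y)) ((σ x : K →+* K).comp (σ y)) fun r => by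
      simp only [RingHom.coe_coe, RingHom.comp_apply, hσ, hαm])
  let t : Γ → (ι → K) → ι → K := fun x w => ((ρ x).map φ).mulVec (σ x ∘ w)
  have hσv : ∀ x (T : Matrix ι ι K) w, σ x ∘ T.mulVec w = (T.map (σ x)).mulVec (σ x ∘ w) :=
    fun x T w => funext fun b => by simp [Matrix.mulVec, dotProduct]
  have hσφ : ∀ x (T : Matrix ι ι k), (T.map φ).map (σ x) = T.map φ := fun x T => by
    ext b c; exact (σ x).commutes _
  have htθ : ∀ x w, t x (θ.mulVec w) = θ.mulVec (t x w) := fun x w => by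
    simp only [t]
    rw [hσv, Matrix.mulVec_mulVec, Matrix.mulVec_mulVec]
    congr 1
    have e1 : θ.map (σ x) = ∑ g, Y (a x g) • (S g - 1) := by
      ext b c
      simp only [hθ, th, Matrix.map_apply, Matrix.sum_apply, map_sum, Matrix.smul_apply,
        smul_eq_mul, map_mul, Y, gy, hσ, Matrix.sub_apply, map_sub, S, Matrix.one_apply,
        apply_ite (σ x), map_one, map_zero, φ, AlgEquiv.commutes]
      refine Finset.sum_congr rfl fun g _ => ?_
      congr 1
      exact (hσ x _).trans (congrArg _ (MvPolynomial.rename_X (R := k) (a x) g))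
    rw [e1, hθ, th, ← Equiv.sum_comp (a x) fun g => Y g • (S g - 1), Finset.mul_sum,
      Finset.sum_mul]
    refine Finset.sum_congr rfl fun g _ => ?_
    rw [mul_smul_comm, smul_mul_assoc, mul_sub, sub_mul, mul_one, one_mul, ← Matrix.map_mul, hρ,
      Matrix.map_mul]
  have htθ' : ∀ x (n : ℕ) w, t x ((θ ^ n).mulVec w) = (θ ^ n).mulVec (t x w) := by
    intro x n
    induction n with
    | zero => intro w; simp
    | succ n ih => intro w; rw [pow_succ', ← Matrix.mulVec_mulVec, htθ, ih, Matrix.mulVec_mulVec]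
  have htl : ∀ x (c : K) v w, t x (c • v + w) = σ x c • t x v + t x w := fun x c v w => by
    simp only [t]
    rw [← Matrix.mulVec_smul, ← Matrix.mulVec_add]
    congr 1
    ext; simp
  have htm : ∀ x y w, t (x * y) w = t x (t y w) := fun x y w => by
    simp only [t]
    rw [hσv, hσφ, Matrix.mulVec_mulVec, ← Matrix.map_mul, ← map_mul]
    congr 1
    ext; simp [hσm]
  have htc : ∀ x c, ρ x = c • 1 → a x = 1 → ∀ w, t x w = φ c • w := fun x c h h' w => by
    simp only [t]
    rw [h, show σ x ∘ w = w from funext fun b => hσ1 x h' _]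
    ext b
    simp [Matrix.mulVec, dotProduct, Matrix.one_apply, apply_ite φ]
  have huq : ∀ (c c' : K) z z', c • x₀ + (θ ^ q).mulVec z = c' • x₀ + (θ ^ q).mulVec z' → c = c' := by
    intro c c' z z' h
    by_contra hne
    refine hx₁ ((c - c')⁻¹ • (z' - z)) ?_
    rw [Matrix.mulVec_smul, Matrix.mulVec_sub, inv_smul_eq_iff₀ (sub_ne_zero.2 hne), sub_smul,
      sub_eq_sub_iff_add_eq_add, add_comm, ← h]
  have hex : ∀ x, ∃ (c : K) (z : ι → K), t x x₀ = c • x₀ + (θ ^ q).mulVec z := fun x =>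
    hx₂ _ (by
      rw [← htθ, hx₀]
      ext b
      simp [t, Matrix.mulVec, dotProduct])
  choose ν z hν using hex
  have hνm : ∀ x y, ν (x * y) = ν x * σ x (ν y) := fun x y =>
    huq _ _ (z (x * y)) (σ x (ν y) • z x + t x (z y)) (by
      rw [← hν, htm, hν y, htl, hν x, htθ', Matrix.mulVec_add, Matrix.mulVec_smul, smul_add,
        smul_smul, mul_comm, add_assoc])
  have hνc : ∀ x c, ρ x = c • 1 → a x = 1 → ν x = φ c := fun x c h h' =>
    huq _ _ (z x) 0 (by rw [← hν, htc x c h h', Matrix.mulVec_zero, add_zero])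
  have hν1 : ν 1 = 1 := by rw [hνc 1 1 (by simp) (map_one a), map_one]
  have hν0 : ∀ x, ν x ≠ 0 := fun x h => by
    have := hνm x x⁻¹
    rw [mul_inv_cancel, hν1, h, zero_mul] at this
    exact one_ne_zero this
  obtain ⟨g, hg, hu⟩ := exists_unit_of_cocycle (fun x => (α x : A →+* A)) (fun x => (σ x : K →+* K))
    hσ (hα1 1 (map_one a)) hαm ν hν0 hνm
  have hgK : algebraMap A K g ≠ 0 := (map_ne_zero_iff _ (IsFractionRing.injective A K)).2 hg
  have hu' : ∀ x, ∃ c : k, ν x * σ x (algebraMap A K g) = φ c * algebraMap A K g := fun x => by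
    obtain ⟨u, hu⟩ := hu x
    obtain ⟨c, -, hc⟩ := MvPolynomial.isUnit_iff_eq_C_of_isReduced.1 u.isUnit
    exact ⟨c, by rw [hσ]; exact hu.trans (by rw [hc]; rfl)⟩
  choose u hu' using hu'
  have huc : ∀ x c, ρ x = c • 1 → a x = 1 → u x = c := fun x c h h' =>
    φ.injective (mul_right_cancel₀ hgK (by rw [← hu', hνc x c h h', hσ1 x h']))
  refine ⟨⟨⟨u, huc 1 1 (by simp) (map_one a)⟩, fun x y => ?_⟩, huc⟩
  refine φ.injective (mul_right_cancel₀ hgK ?_)
  rw [← hu', hνm, hσm, mul_assoc, ← map_mul, hu', map_mul, (σ x).commutes, map_mul, mul_left_comm,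
    hu']
  ring

end Cfsg.Lib.DGN
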