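import Cfsg.Agent.Lib.DGN.Lft

/-! A finite cover over which an invariant representation extends, and the transfer of extensions
to the Glauberman correspondent. -/

namespace Cfsg.Lib.DGN

open _root_.Cfsg.Lib.Block MonoidAlgebra Module Cfsg.Lib.Transfer Subgroup Cfsg.Lib.Char

variable {G : Type*} [Group G] {Γ : Type*} [Group Γ] {π : Γ →* G} {N : Subgroup G}
  {V : Type*} [AddCommGroup V] [Module ℂ V]

/-- Pairs `(γ, A)` with `A` inducing conjugation by `π γ` and of controlled determinant. -/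
def cov (hπ : ∀ γ, π γ ∈ normalizer (N : Set G)) (ρ : Representation ℂ N V) :
    Subgroup (Γ × (V →ₗ[ℂ] V)ˣ) where
  carrier := {x | (∀ n m : N, (m : G) = π x.1 * n * (π x.1)⁻¹ →
    (x.2 : V →ₗ[ℂ] V) * ρ n = ρ m * x.2) ∧ LinearMap.det (x.2 : V →ₗ[ℂ] V) ^ Nat.card N = 1}
  one_mem' := ⟨fun n m h => by
    rw [show m = n from Subtype.ext (by simpa using h)]; simp, by simp⟩
  mul_mem' := fun {x y} hx hy => ⟨fun n m h => by
    let a : N := ⟨π y.1 * n * (π y.1)⁻¹, (mem_normalizer_iff.1 (hπ _) _).1 n.2⟩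
    rw [Prod.snd_mul, Units.val_mul, mul_assoc, hy.1 n a rfl, ← mul_assoc,
      hx.1 a m (by rw [h]; simp [a, mul_assoc]), mul_assoc],
    by rw [Prod.snd_mul, Units.val_mul, map_mul, mul_pow, hx.2, hy.2, mul_one]⟩
  inv_mem' := fun {x} hx => ⟨fun n m h => by
    have := hx.1 m n (by rw [h]; simp [mul_assoc])
    rw [Prod.snd_inv, Units.inv_mul_eq_iff_eq_mul, ← mul_assoc, this, Units.mul_inv_cancel_right],
    by
    have h1 : LinearMap.det ((x.2⁻¹ : (V →ₗ[ℂ] V)ˣ) : V →ₗ[ℂ] V) *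
        LinearMap.det (x.2 : V →ₗ[ℂ] V) = 1 := by rw [← map_mul, Units.inv_mul, map_one]
    have h2 := congrArg (· ^ Nat.card N) h1
    simp only [mul_pow, hx.2, mul_one, one_pow] at h2
    exact h2⟩

variable (hπ : ∀ γ, π γ ∈ normalizer (N : Set G)) (ρ : Representation ℂ N V)

/-- The projection of the cover. -/
def covFst : cov hπ ρ →* Γ := (MonoidHom.fst _ _).comp (cov hπ ρ).subtype

/-- The representation of the cover. -/
def covRep : Representation ℂ (cov hπ ρ) V :=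
  (Units.coeHom _).comp ((MonoidHom.snd _ _).comp (cov hπ ρ).subtype)

theorem intw_cov : Intw (π.comp (covFst hπ ρ)) ρ (covRep hπ ρ) := fun x => x.2.1

theorem cov_ext {x y : cov hπ ρ} (h1 : covFst hπ ρ x = covFst hπ ρ y)
    (h2 : covRep hπ ρ x = covRep hπ ρ y) : x = y := Subtype.ext (Prod.ext h1 (Units.ext h2))

theorem exists_cov_eq [Finite N] (γ : Γ) (n : N) (h : (n : G) = π γ) :
    ∃ x, covFst hπ ρ x = γ ∧ covRep hπ ρ x = ρ n :=
  ⟨⟨(γ, ρ.asGroupHom n), fun a b hb => by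
    change ρ n * ρ a = ρ b * ρ n
    rw [← map_mul, ← map_mul]
    exact congrArg ρ (Subtype.ext (by simp [hb, h])), by
    change LinearMap.det (ρ n) ^ _ = 1
    rw [← map_pow, ← map_pow, pow_card_eq_one', map_one, map_one]⟩, rfl, rfl⟩

variable [FiniteDimensional ℂ V] [ρ.IsIrreducible]

variable {ρ} in
theorem Intw.exists_smul {σ : Representation ℂ Γ V} (h : Intw π ρ σ) {γ : Γ} {n : N}
    (hn : (n : G) = π γ) : ∃ c : ℂ, σ γ = c • ρ n := by
  obtain ⟨c, hc⟩ := exists_eq_smul_of_commute ρ (ρ n⁻¹ * σ γ) fun a => by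
    rw [← Module.End.mul_eq_comp, ← Module.End.mul_eq_comp, mul_assoc,
      h γ a (n * a * n⁻¹) (by simp [hn]), ← mul_assoc, ← mul_assoc, ← map_mul, ← map_mul]
    simp [mul_assoc]
  refine ⟨c, ?_⟩
  rw [← mul_one (ρ n), ← mul_smul_comm, Module.End.one_eq_id, ← hc, ← mul_assoc, ← map_mul,
    mul_inv_cancel, map_one, one_mul]

variable {ρ} in
theorem pow_eq_one_of_smul {σ : Representation ℂ Γ V} {γ : Γ} {n : N} {c : ℂ} (h : σ γ = c • ρ n)
    {m : ℕ} (h1 : γ ^ m = 1) (h2 : n ^ m = 1) : c ^ m = 1 := by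
  haveI := nontrivial_of_isIrreducible ρ
  have := congrArg (· ^ m) h
  simp only [smul_pow, ← map_pow, h1, h2, map_one] at this
  exact Clifford.smul_one_injective (this.symm.trans (one_smul _ _).symm)

theorem exists_cov_scalar {x : cov hπ ρ} (hx : covFst hπ ρ x = 1) :
    ∃ c : ℂ, covRep hπ ρ x = c • 1 ∧ c ^ (finrank ℂ V * Nat.card N) = 1 := by
  obtain ⟨c, hc⟩ := (intw_cov hπ ρ).exists_smul (γ := x) (n := 1) (by simp [hx])
  rw [map_one] at hc
  refine ⟨c, hc, ?_⟩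
  have : LinearMap.det (covRep hπ ρ x) ^ Nat.card N = 1 := x.2.2
  rwa [hc, LinearMap.det_smul, map_one, mul_one, ← pow_mul] at this

theorem cov_pow_eq_one {x : cov hπ ρ} (hx : covFst hπ ρ x = 1) :
    x ^ (finrank ℂ V * Nat.card N) = 1 := by
  obtain ⟨c, hc, h1⟩ := exists_cov_scalar hπ ρ hx
  exact cov_ext hπ ρ (by rw [map_pow, hx, one_pow, map_one])
    (by rw [map_pow, hc, smul_pow, h1, one_pow, one_smul, map_one])

theorem cov_comm {x : cov hπ ρ} (hx : covFst hπ ρ x = 1) (y : cov hπ ρ) : x * y = y * x := by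
  obtain ⟨c, hc, -⟩ := exists_cov_scalar hπ ρ hx
  exact cov_ext hπ ρ (by rw [map_mul, map_mul, hx, one_mul, mul_one])
    (by rw [map_mul, map_mul, hc]; simp)

instance finite_cov [Finite Γ] [Finite N] : Finite (cov hπ ρ) := by
  refine (covFst hπ ρ).finite_iff_finite_ker_range.2 ⟨?_, inferInstance⟩
  have hm : 0 < finrank ℂ V * Nat.card N := mul_pos (finrank_pos_of_isIrreducible ρ) Nat.card_pos
  choose c hc hc' using fun x : (covFst hπ ρ).ker => exists_cov_scalar hπ ρ x.2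
  classical
  exact Finite.of_injective (fun x => (⟨c x, (Polynomial.mem_nthRootsFinset hm 1).2 (hc' x)⟩ :
    Polynomial.nthRootsFinset (finrank ℂ V * Nat.card N) (1 : ℂ))) fun x y h =>
      Subtype.ext (cov_ext hπ ρ (x.2.trans y.2.symm) (by rw [hc, hc, Subtype.mk.inj h]))

theorem covFst_surjective [Finite N]
    (hinv : ∀ γ (n m : N), (m : G) = π γ * n * (π γ)⁻¹ → ρ.character m = ρ.character n) :
    Function.Surjective (covFst hπ ρ) := fun γ => by
  let φ : N →* N := (cjIso (conj_eq_self_iff.2 (hπ γ))).toMonoidHom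
  obtain ⟨e⟩ := Clifford.nonempty_equiv_of_character_eq ρ (ρ.comp φ)
    (funext fun n => (hinv γ n (φ n) rfl).symm)
  let A := LinearMap.GeneralLinearGroup.ofLinearEquiv e.toLinearEquiv
  obtain ⟨c, hc⟩ := IsAlgClosed.exists_pow_nat_eq (LinearMap.det ((A⁻¹ : (V →ₗ[ℂ] V)ˣ) : V →ₗ[ℂ] V))
    (finrank_pos_of_isIrreducible ρ)
  have h1 : c ^ finrank ℂ V * LinearMap.det (A : V →ₗ[ℂ] V) = 1 := by
    rw [hc, ← map_mul, Units.inv_mul, map_one]
  have hc0 : c ≠ 0 := fun h => by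
    rw [h, zero_pow (finrank_pos_of_isIrreducible ρ).ne', zero_mul] at h1
    exact zero_ne_one h1
  refine ⟨⟨(γ, Units.mk0 c hc0 • A), fun n m h => ?_, ?_⟩, rfl⟩
  · change c • (A : V →ₗ[ℂ] V) * ρ n = ρ m * c • (A : V →ₗ[ℂ] V)
    rw [smul_mul_assoc, mul_smul_comm, show m = φ n from Subtype.ext h]
    exact congrArg _ (LinearMap.ext fun v => equiv_apply_apply e n v)
  · change LinearMap.det (c • (A : V →ₗ[ℂ] V)) ^ _ = 1
    rw [LinearMap.det_smul, h1, one_pow]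

variable [Finite G] {p : ℕ} [hp : Fact p.Prime] {M : Ideal AlgInt} [Modular p M]

variable (π N) in
/-- The character of the block `f` of `N` extends over `π`, up to the scalars `l`. -/
def Ext (f : (Res M)[G]) (l : Γ → ℂ) : Prop :=
  ∃ (θ : IrrCharacter N) (d : ℕ) (ρ : Representation ℂ N (Fin d → ℂ))
    (σ : Representation ℂ Γ (Fin d → ℂ)), f = ebl N M {θ} ∧ ρ.IsIrreducible ∧ ρ.character = θ ∧
      Intw π ρ σ ∧ ∀ γ (n : N), (n : G) = π γ → σ γ = l γ • ρ n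

omit hp in
theorem invariant_of_cj_eq (hN : ¬ p ∣ Nat.card N) {θ : IrrCharacter N} {g : G}
    (hg : g ∈ normalizer (N : Set G)) (h : cj g (ebl N M {θ}) = ebl N M {θ}) (n m : N)
    (hm : (m : G) = g * n * g⁻¹) : (θ : N → ℂ) m = (θ : N → ℂ) n := by
  haveI : Fact p.Prime := ⟨Modular.prime M⟩
  have h1 := isPBlock_singleton_of_not_dvd (M := M) hN θ
  have h2 := (h1.cjSet_eq_iff (conj_eq_self_iff.2 hg) h1).2 h
  obtain ⟨θ', h3, h4⟩ := exists_mem_cjSet (conj_eq_self_iff.2 hg) (Set.mem_singleton θ)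
  rw [h2, Set.mem_singleton_iff] at h3
  exact h3 ▸ h4 n m hm

omit [Finite G] in
theorem normalizer_inf_centralizer (hπ : ∀ γ, π γ ∈ normalizer (N : Set G)) (R : Subgroup Γ)
    [R.Normal] (γ : Γ) :
    π γ ∈ normalizer ((N ⊓ centralizer (R.map π : Set G) : Subgroup G) : Set G) := by
  refine inf_normalizer_le_normalizer_inf ⟨hπ γ, normalizer_le_normalizer_centralizer _ ?_⟩
  exact le_normalizer_map π ⟨γ, by rw [normalizer_eq_top]; trivial, rfl⟩

theorem Ext.step [Finite Γ] {f : (Res M)[G]} {l : Γ → ℂ} (h : Ext π N f l)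
    (hπ : ∀ γ, π γ ∈ normalizer (N : Set G)) (hN : ¬ p ∣ Nat.card N) {m : ℕ} (hm : ¬ p ∣ m)
    (hker : ∀ γ, π γ = 1 → γ ^ m = 1) {R : Subgroup Γ} [hRn : R.Normal] (hR : IsPGroup p R)
    (hab : ∀ g ∈ R, ∀ g' ∈ R, g * g' = g' * g) (hRp : ∀ g ∈ R, π g ^ p ∈ centralizer (N : Set G)) :
    Ext π (N ⊓ centralizer (R.map π : Set G)) (br (R.map π) f) l := by
  obtain ⟨θ, d, ρ, σ, rfl, hρ, hθ, hσ, hl⟩ := h
  obtain ⟨s, hs, hs'⟩ := hσ.exists_fac (M := M) hπ hN hθ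
  have hf := (isPBlock_singleton_of_not_dvd (M := M) hN θ).isBlkIdem
  set C := N ⊓ centralizer (R.map π : Set G) with hC
  have hC' : ¬ p ∣ Nat.card C := fun h0 => hN (h0.trans (card_dvd_of_le inf_le_left))
  have hπC : ∀ γ, π γ ∈ normalizer (C : Set G) := normalizer_inf_centralizer hπ R
  have hf' : IsBlkIdem C M (br (R.map π) (ebl N M {θ})) := hf.br_of_not_dvd hN (hR.map π)
    (by rintro _ ⟨g, -, rfl⟩; exact hπ g) (by rintro _ ⟨g, -, rfl⟩; exact hs.cj_eq hf (hπ g))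
  obtain ⟨_, ⟨θ', rfl⟩, hθ'⟩ := id hf'
  rw [blockOf_eq_singleton_of_not_dvd hC'] at hθ'
  obtain ⟨d', ρ', hρ', hχ⟩ := θ'.2
  have hinv : ∀ γ (n m : C), (m : G) = π γ * n * (π γ)⁻¹ → ρ'.character m = ρ'.character n :=
    fun γ => hχ ▸ invariant_of_cj_eq (M := M) hC' (hπC γ) (by
      rw [← hθ', cj_br, hs.cj_eq hf (hπ γ), conj_eq_self_iff.2
        (le_normalizer_map π ⟨γ, by rw [normalizer_eq_top]; trivial, rfl⟩)])
  have hsurj := covFst_surjective hπC ρ' hinv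
  set π₂ := covFst hπC ρ' with hπ₂
  set τ := covRep hπC ρ' with hτ
  have hi : Intw (π.comp π₂) ρ' τ := intw_cov hπC ρ'
  obtain ⟨t, ht, ht'⟩ := hi.exists_fac (M := M) (fun δ => hπC _) hC' hχ
  rw [← hθ'] at ht ht'
  obtain ⟨ν, hν⟩ := hs.exists_hom π₂ hf hN hπ hR hab hRp ht
  obtain ⟨ν', hν'⟩ := exists_hom_lift ν
  have hd : ¬ p ∣ finrank ℂ (Fin d' → ℂ) := fun h0 =>
    hC' (h0.trans (θ'.2.degree_dvd_card (by rw [← hχ, Representation.char_one])))
  have key : ∀ δ (c : C), (c : G) = π (π₂ δ) → (ν' δ : ℂ) • τ δ = l (π₂ δ) • ρ' c := by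
    intro δ c hc
    obtain ⟨a, ha⟩ := hi.exists_smul (γ := δ⁻¹) (n := c⁻¹) (by simp [hc])
    set k := Nat.card C * m * (finrank ℂ (Fin d' → ℂ) * Nat.card C) with hk
    have hkp : ¬ p ∣ k := by
      simp only [hk, hp.out.dvd_mul, not_or]
      exact ⟨⟨hC', hm⟩, hd, hC'⟩
    have hck : c ^ k = 1 := by rw [hk, mul_assoc, pow_mul, pow_card_eq_one', one_pow]
    have hδ : δ ^ k = 1 := by
      rw [hk, pow_mul]
      refine cov_pow_eq_one hπC ρ' ?_
      rw [map_pow, pow_mul]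
      refine hker _ ?_
      rw [map_pow, ← hc, ← SubgroupClass.coe_pow, pow_card_eq_one', OneMemClass.coe_one]
    have ha' : a ^ k = 1 := pow_eq_one_of_smul ha (by rw [inv_pow, hδ, inv_one])
      (by rw [inv_pow, hck, inv_one])
    have hl1 := hl (π₂ δ) ⟨c, c.2.1⟩ hc
    have hl' : l (π₂ δ) ^ k = 1 := pow_eq_one_of_smul hl1 (by rw [← map_pow, hδ, map_one])
      (Subtype.ext (congrArg (fun x : C => (x : G)) hck))
    have hk0 : k ≠ 0 := ne_zero_of_not_dvd hkp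
    have m1 := mem_locRing_of_isIntegral (M := M) (isIntegral_of_pow_eq_one hk0 ha')
    have m2 := mem_locRing_of_isIntegral (M := M) (isIntegral_of_pow_eq_one hk0 hl')
    have h1 := hν δ (red M (l (π₂ δ) * a)) (by
      rw [hs' _ _ _ m2 hl1, ht' _ _ _ m1 ha, red_mul m2 m1, smul_mul_smul_comm]
      congr 1
      rw [(commute_of_supp_of_fix (of_mem_supp c.2.1) hf.mem_cen.1).eq, mul_assoc,
        ← mul_assoc (of _ _ _), ← map_mul, InvMemClass.coe_inv, mul_inv_cancel, map_one, one_mul]) (fun g hg => by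
      obtain ⟨j, hj⟩ := hR ⟨π₂ δ * g * (π₂ δ)⁻¹ * g⁻¹, mul_mem (hRn.conj_mem g hg _) (inv_mem hg)⟩
      have h2 := hker (π₂ δ * g * (π₂ δ)⁻¹ * g⁻¹) (by
        simp only [map_mul, map_inv, ← hc]
        rw [← c.2.2 _ ⟨g, hg, rfl⟩]; simp)
      have h3 := pow_gcd_eq_one.2 ⟨h2, congrArg (fun x : R => (x : Γ)) hj⟩
      rw [Nat.Coprime.gcd_eq_one (((Nat.Prime.coprime_iff_not_dvd hp.out).2 hm).symm.pow_right j),
        pow_one, mul_inv_eq_one, mul_inv_eq_iff_eq_mul] at h3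
      exact h3)
    have h2 : (ν' δ : ℂ) = l (π₂ δ) * a := eq_of_red_eq
      (Nat.not_dvd_ordCompl hp.out Nat.card_pos.ne') hkp (hν' δ).2
      (by rw [mul_pow, hl', ha', one_mul]) ((hν' δ).1.trans h1)
    have h3 : a • τ δ = ρ' c := by
      rw [← one_mul (τ δ), ← map_one ρ', ← mul_inv_cancel c, map_mul, mul_assoc, ← mul_smul_comm,
        ← smul_mul_assoc, ← ha, ← map_mul, inv_mul_cancel, map_one, mul_one]
    rw [h2, mul_smul, h3]
  have hl1 : l 1 = 1 := by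
    have := pow_eq_one_of_smul (m := 1) (hl 1 1 (by simp)) (pow_one _) (pow_one _)
    rwa [pow_one] at this
  let σ₀ := π₂.liftOfSurjective hsurj ⟨(twistRep τ ν').asGroupHom, fun δ hδ => Units.ext (by
    have := key δ 1 (by rw [MonoidHom.mem_ker.1 hδ]; simp)
    rw [MonoidHom.mem_ker.1 hδ, hl1, one_smul, map_one] at this
    exact this)⟩
  have hσ₀ : ∀ δ, (σ₀ (π₂ δ) : (Fin d' → ℂ) →ₗ[ℂ] (Fin d' → ℂ)) = (ν' δ : ℂ) • τ δ := fun δ =>
    congrArg Units.val (MonoidHom.liftOfRightInverse_comp_apply _ _ _ _ δ)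
  refine ⟨θ', d', ρ', (Units.coeHom _).comp σ₀, hθ', hρ', hχ, fun γ a b hb => ?_, fun γ c hc => ?_⟩
  · obtain ⟨δ, rfl⟩ := hsurj γ
    change (σ₀ (π₂ δ) : (Fin d' → ℂ) →ₗ[ℂ] (Fin d' → ℂ)) * _ = _ * (σ₀ (π₂ δ) : _ →ₗ[ℂ] _)
    rw [hσ₀, smul_mul_assoc, mul_smul_comm, hi δ a b hb]
  · obtain ⟨δ, rfl⟩ := hsurj γ
    exact (hσ₀ δ).trans (key δ c hc)

theorem Ext.br [Finite Γ] {l : Γ → ℂ} {m : ℕ} (hm : ¬ p ∣ m) (hker : ∀ γ, π γ = 1 → γ ^ m = 1)
    {P : Subgroup Γ} [hPn : P.Normal] (hP : IsPGroup p P)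
    (hab : ∀ g ∈ P, ∀ g' ∈ P, g * g' = g' * g) (k : ℕ) {N : Subgroup G} {f : (Res M)[G]}
    (h : Ext π N f l) (hπ : ∀ γ, π γ ∈ normalizer (N : Set G)) (hN : ¬ p ∣ Nat.card N)
    (hk : ∀ g ∈ P, π g ^ p ^ k ∈ centralizer (N : Set G)) :
    Ext π (N ⊓ centralizer (P.map π : Set G)) (Block.br (P.map π) f) l := by
  induction k generalizing N f with
  | zero =>
    have h1 : N ≤ centralizer (P.map π : Set G) := by
      rintro n hn _ ⟨g, hg, rfl⟩
      exact (pow_one (π g) ▸ hk g hg n hn).symm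
    have h2 : Block.br (P.map π) f = f := by
      obtain ⟨θ, -, -, -, rfl, -⟩ := h
      exact trunc_eq_self_of_supp (supp_mono h1 (ebl_mem_cen _).2)
    rwa [h2, inf_eq_left.2 h1]
  | succ k ih =>
    let R : Subgroup Γ :=
      { carrier := {g | g ∈ P ∧ π g ^ p ∈ centralizer (N : Set G)}
        one_mem' := ⟨one_mem _, by simp⟩
        mul_mem' := fun {a b} ha hb => ⟨mul_mem ha.1 hb.1, by
          rw [map_mul, (Commute.map (hab a ha.1 b hb.1) π).mul_pow]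
          exact mul_mem ha.2 hb.2⟩
        inv_mem' := fun {a} ha => ⟨inv_mem ha.1, by rw [map_inv, inv_pow]; exact inv_mem ha.2⟩ }
    have hRP : R ≤ P := fun _ h => h.1
    haveI : R.Normal := ⟨fun g hg γ => ⟨hPn.conj_mem g hg.1 γ, by
      rw [map_mul, map_mul, map_inv, conj_pow]
      exact (mem_normalizer_iff.1 (normalizer_le_normalizer_centralizer N (hπ γ)) _).1 hg.2⟩⟩
    have h1 := ih (h.step hπ hN hm hker (hP.to_le hRP) (fun g hg g' hg' => hab g hg.1 g' hg'.1)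
      fun g hg => hg.2) (normalizer_inf_centralizer hπ R)
      (fun h0 => hN (h0.trans (card_dvd_of_le inf_le_left))) fun g hg n hn =>
        (hn.2 _ ⟨g ^ p ^ k, ⟨pow_mem hg _, by
          rw [map_pow, ← pow_mul, ← pow_succ]; exact hk g hg⟩, map_pow _ _ _⟩).symm
    rwa [br_br_of_le (map_mono hRP), inf_assoc,
      inf_eq_right.2 (centralizer_le (SetLike.coe_subset_coe.2 (map_mono hRP)))] at h1

end Cfsg.Lib.DGN
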