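import Cfsg.Agent.Lib.DGN.Perf

/-! Gallagher's correspondence through a central `p'`-cover and its kernel. -/

namespace Cfsg.Lib.DGN

open _root_.Cfsg.Lib.Block MonoidAlgebra Module Cfsg.Lib.Transfer Subgroup Cfsg.Lib.Char
open scoped ComplexConjugate

variable {Γ G Y : Type*} [Group Γ] [Group G] [Group Y] [Finite Γ] {p : ℕ} [hp : Fact p.Prime]
  {π : Γ →* G} {κ : Γ →* Y}

theorem dvd_orderOf_map_iff (hk : ¬ p ∣ Nat.card κ.ker) (γ : Γ) :
    p ∣ orderOf (κ γ) ↔ p ∣ orderOf γ := by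
  refine ⟨fun h => h.trans (orderOf_map_dvd κ γ), fun h => ?_⟩
  have h1 : γ ^ orderOf (κ γ) ∈ κ.ker := by rw [MonoidHom.mem_ker, map_pow, pow_orderOf_eq_one]
  have h2 : γ ^ (orderOf (κ γ) * Nat.card κ.ker) = 1 := by
    rw [pow_mul]
    exact congrArg Subtype.val (pow_card_eq_one' (x := (⟨_, h1⟩ : κ.ker)))
  exact (hp.out.dvd_mul.1 (h.trans (orderOf_dvd_of_pow_eq_one h2))).resolve_right hk

omit hp in
theorem card_centralizer_dvd (hπ : Function.Surjective π) (hc : ∀ z, π z = 1 → ∀ γ, z * γ = γ * z)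
    (κ : Γ →* Y) (γ : Γ) : Nat.card (centralizer ({π γ} : Set G)) ∣
      Nat.card (centralizer ({κ γ} : Set Y)) * (Nat.card κ.ker * Nat.card π.ker) := by
  let A := (centralizer ({π γ} : Set G)).comap π
  have hA : ∀ a : A, π (a * γ * a⁻¹ * γ⁻¹) = 1 := fun a => by
    have : π a * π γ = π γ * π a := mem_centralizer_singleton_iff.1 a.2
    simp [this]
  let φ : A →* π.ker := MonoidHom.mk' (fun a => ⟨a * γ * a⁻¹ * γ⁻¹, hA a⟩) fun a b => by
    refine Subtype.ext ?_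
    have := hc _ (hA b) (γ * (a : Γ)⁻¹ * γ⁻¹)⁻¹
    change ((a * b : A) : Γ) * γ * ((a * b : A) : Γ)⁻¹ * γ⁻¹ =
      a * γ * (a : Γ)⁻¹ * γ⁻¹ * (b * γ * (b : Γ)⁻¹ * γ⁻¹)
    have h2 := hc _ (hA b) (γ * (a : Γ)⁻¹ * γ⁻¹)
    simp only [InvMemClass.coe_inv] at h2
    rw [mul_assoc (a : Γ) γ, mul_assoc (a : Γ), mul_assoc (a : Γ), ← h2]
    simp [mul_assoc]
  have h1 : Nat.card (centralizer ({π γ} : Set G)) ∣ Nat.card A :=
    card_dvd_of_surjective _ (π.subgroupComap_surjective_of_surjective _ hπ)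
  have h2 : Nat.card φ.ker ∣ Nat.card (centralizer ({γ} : Set Γ)) :=
    card_dvd_of_injective ((A.subtype.comp φ.ker.subtype).codRestrict _ fun a =>
      mem_centralizer_singleton_iff.2 (by
        have := congrArg Subtype.val (MonoidHom.mem_ker.1 a.2)
        rwa [OneMemClass.coe_one, MonoidHom.mk'_apply, mul_inv_eq_one, InvMemClass.coe_inv,
          mul_inv_eq_iff_eq_mul] at this))
      fun a b h => Subtype.ext (Subtype.ext
        (congrArg (fun x : centralizer ({γ} : Set Γ) => (x : Γ)) h))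
  let ψ : centralizer ({γ} : Set Γ) →* centralizer ({κ γ} : Set Y) :=
    (κ.comp (centralizer ({γ} : Set Γ)).subtype).codRestrict _ fun a =>
      mem_centralizer_singleton_iff.2 (by
        have := congrArg κ (mem_centralizer_singleton_iff.1 a.2)
        rwa [map_mul, map_mul] at this)
  have h3 : Nat.card ψ.ker ∣ Nat.card κ.ker :=
    card_dvd_of_injective (((centralizer ({γ} : Set Γ)).subtype.comp ψ.ker.subtype).codRestrict _
      fun a => congrArg Subtype.val (MonoidHom.mem_ker.1 a.2))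
      fun a b h => Subtype.ext (Subtype.ext (congrArg (fun x : κ.ker => (x : Γ)) h))
  rw [← card_mul_index ψ.ker, index_ker] at h2
  rw [← card_mul_index φ.ker, index_ker] at h1
  refine h1.trans ?_
  rw [← mul_assoc, mul_comm (Nat.card (centralizer ({κ γ} : Set Y)))]
  exact mul_dvd_mul (h2.trans (mul_dvd_mul h3 (card_subgroup_dvd_card _))) (card_subgroup_dvd_card _)

variable {M : Ideal AlgInt} [Modular p M]

theorem card_centralizer_div_mem (hπ : Function.Surjective π)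
    (hc : ∀ z, π z = 1 → ∀ γ, z * γ = γ * z) (h1 : ¬ p ∣ Nat.card π.ker)
    (h2 : ¬ p ∣ Nat.card κ.ker) (γ : Γ) : (Nat.card (centralizer ({κ γ} : Set Y)) : ℂ) /
      Nat.card (centralizer ({π γ} : Set G)) ∈ locRing M := by
  haveI := Finite.of_surjective π hπ
  obtain ⟨k, hk⟩ := card_centralizer_dvd hπ hc κ γ
  have h3 : ¬ p ∣ Nat.card κ.ker * Nat.card π.ker := fun h => (hp.out.dvd_mul.1 h).elim h2 h1
  have h4 : ((Nat.card κ.ker * Nat.card π.ker : ℕ) : ℂ) ≠ 0 :=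
    Nat.cast_ne_zero.2 (ne_zero_of_not_dvd h3)
  have h5 : (Nat.card (centralizer ({κ γ} : Set Y)) : ℂ) / Nat.card (centralizer ({π γ} : Set G)) =
      k * ((Nat.card κ.ker * Nat.card π.ker : ℕ) : ℂ)⁻¹ := by
    rw [← div_eq_mul_inv, div_eq_div_iff (card_ne_zero_complex _) h4, mul_comm (k : ℂ)]
    exact_mod_cast hk
  rw [h5]
  exact mul_mem (natCast_mem _ _) (natCast_inv_mem h3)

theorem kernel_good [Finite Y] (hπ : Function.Surjective π) (hκ : Function.Surjective κ)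
    (hc : ∀ z, π z = 1 → ∀ γ, z * γ = γ * z) (h1 : ¬ p ∣ Nat.card π.ker)
    (h2 : ¬ p ∣ Nat.card κ.ker) (l : π.ker →* ℂ) {S : Set (IrrCharacter Y)}
    (hS : ∀ β, β ∈ S ↔ ∀ z : π.ker, (β : Y → ℂ) (κ z) * l z = (β : Y → ℂ) 1) (γ : Γ) (v : Y) :
    (∑ᶠ β : S, (β : Y → ℂ) (κ γ) * (β : Y → ℂ) v) / Nat.card (centralizer ({π γ} : Set G)) ∈
      locRing M ∧
    (∑ᶠ β : S, (β : Y → ℂ) (κ γ) * (β : Y → ℂ) v ≠ 0 → (p ∣ orderOf (π γ) ↔ p ∣ orderOf v)) := by
  classical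
  haveI := Fintype.ofFinite π.ker
  have h3 : ∀ β : IrrCharacter Y, ∑ z : π.ker, l z * (β : Y → ℂ) (κ (z * γ)) =
      if β ∈ S then Nat.card π.ker * (β : Y → ℂ) (κ γ) else 0 := fun β => by
    have hz : ∀ z : π.ker, κ z ∈ charCenter (β : Y → ℂ) := fun z =>
      β.2.center_le_charCenter (mem_center_iff.2 fun y => by
        obtain ⟨y, rfl⟩ := hκ y
        rw [← map_mul, ← map_mul, hc z z.2])
    let f : π.ker →* ℂ := l * ((Units.coeHom ℂ).comp ((centerHom _ β.2.apply_one_ne_zero).comp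
      ((κ.comp π.ker.subtype).codRestrict _ hz)))
    have hf : ∀ z, f z = l z * ((β : Y → ℂ) (κ z) / (β : Y → ℂ) 1) := fun z => rfl
    have hf' : ∀ z : π.ker, l z * (β : Y → ℂ) (κ (z * γ)) = f z * (β : Y → ℂ) (κ γ) := fun z => by
      rw [map_mul, apply_mul_eq_centerHom_mul β.2.apply_one_ne_zero ⟨κ z, hz z⟩, ← mul_assoc]; rfl
    simp only [hf', ← Finset.sum_mul]
    have h4 : β ∈ S ↔ f = 1 := by
      rw [hS, MonoidHom.ext_iff]
      refine forall_congr' fun z => ?_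
      rw [hf, MonoidHom.one_apply, ← mul_div_assoc, div_eq_one_iff_eq β.2.apply_one_ne_zero,
        mul_comm]
    split_ifs with h
    · rw [h4.1 h]
      simp only [MonoidHom.one_apply, Finset.sum_const, Finset.card_univ, nsmul_eq_mul, mul_one,
        Nat.card_eq_fintype_card]
    · rw [sum_hom_units_eq_zero f (mt h4.2 h), zero_mul]
  have h4 : ∑ᶠ β : S, (β : Y → ℂ) (κ γ) * (β : Y → ℂ) v = (Nat.card π.ker : ℂ)⁻¹ *
      ∑ z : π.ker, l z * ∑ β : IrrCharacter Y, (β : Y → ℂ) (κ (z * γ)) * conj ((β : Y → ℂ) v⁻¹) := by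
    rw [Finset.sum_congr rfl fun z _ => Finset.mul_sum _ _ (l z), Finset.sum_comm]
    simp only [← mul_assoc, ← Finset.sum_mul, h3]
    simp only [ite_mul, zero_mul, mul_assoc]
    rw [← Finset.sum_filter, ← Finset.mul_sum, inv_mul_cancel_left₀ (card_ne_zero_complex _),
      finsum_eq_sum_of_fintype, Finset.sum_subtype (p := (· ∈ S)) _ (by simp)]
    refine Finset.sum_congr rfl fun β _ => ?_
    rw [β.1.2.isCharacter.apply_inv, Complex.conj_conj]
  have h5 : ∀ z : π.ker, π (z * γ) = π γ := fun z => by rw [map_mul, z.2, one_mul]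
  rw [h4]
  refine ⟨?_, fun h0 => ?_⟩
  · rw [mul_div_assoc, Finset.sum_div]
    refine mul_mem (natCast_inv_mem h1) (sum_mem fun z _ => ?_)
    rw [mul_div_assoc]
    refine mul_mem (mem_locRing_of_isIntegral (isIntegral_of_pow_eq_one
      (n := Nat.card π.ker) Nat.card_pos.ne' (by rw [← map_pow, pow_card_eq_one', map_one]))) ?_
    by_cases h : IsConj (κ (z * γ)) v⁻¹
    · rw [sum_irr_mul_conj_of_isConj h, ← h5 z]
      exact card_centralizer_div_mem hπ hc h1 h2 _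
    · rw [sum_irr_mul_conj_of_not_isConj h, zero_div]
      exact zero_mem _
  · obtain ⟨z, -, hz⟩ := Finset.exists_ne_zero_of_sum_ne_zero (right_ne_zero_of_mul h0)
    obtain ⟨g, hg⟩ := isConj_iff.1 (by_contra fun h =>
      right_ne_zero_of_mul hz (sum_irr_mul_conj_of_not_isConj h))
    rw [← h5 z, dvd_orderOf_map_iff h1, ← dvd_orderOf_map_iff h2, ← orderOf_inv v, ← hg]
    exact Iff.of_eq (congrArg _ ((MulAut.conj g).orderOf_eq _).symm)

omit hp in
theorem exists_gallagher [Finite G] [Finite Y] {N : Type*} [Group N] [Finite N]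
    (hπ : Function.Surjective π) (hκ : Function.Surjective κ) {ι : N →* Γ}
    (hι : Function.Injective ι) (hικ : ι.range = κ.ker) {φ : N →* G} (hφ : ∀ n, π (ι n) = φ n)
    {θ : IrrCharacter N} {χ : Γ → ℂ} (hχ : IsCharacter Γ χ) (hθ : ∀ n, χ (ι n) = (θ : N → ℂ) n)
    {l : π.ker → ℂ} (hl : ∀ z : π.ker, χ z = l z * χ 1) {S : Set (IrrCharacter Y)}
    (hS : ∀ β, β ∈ S ↔ ∀ z : π.ker, (β : Y → ℂ) (κ z) * l z = (β : Y → ℂ) 1) :
    ∃ u : S ≃ {ψ : IrrCharacter G | Over φ (ψ : G → ℂ) {θ}},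
      ∀ β γ, (u β : G → ℂ) (π γ) = (β : Y → ℂ) (κ γ) * χ γ := by
  haveI := Fintype.ofFinite N
  haveI := Fintype.ofFinite κ.ker
  let e : N ≃* κ.ker := (MonoidHom.ofInjective hι).trans (MulEquiv.subgroupCongr hικ)
  have he : ∀ n, (e n : Γ) = ι n := fun _ => rfl
  have hirr : IsIrrCharacter κ.ker fun n : κ.ker => χ n := by
    have := θ.2.comp_equiv e.symm
    simpa only [← hθ, ← he, MulEquiv.apply_symm_apply] using this
  have h1 : χ 1 ≠ 0 := hirr.apply_one_ne_zero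
  have hk : ∀ β : IrrCharacter Y, ∀ n ∈ κ.ker, (infl κ hκ β : Γ → ℂ) n = (infl κ hκ β : Γ → ℂ) 1 :=
    fun β n hn => by rw [infl_apply, infl_apply, MonoidHom.mem_ker.1 hn, map_one]
  have hex : ∀ β : S, ∃ ψ : {ψ : IrrCharacter G | Over φ (ψ : G → ℂ) {θ}},
      ∀ γ, (ψ : G → ℂ) (π γ) = (β : Y → ℂ) (κ γ) * χ γ := fun β => by
    obtain ⟨ψ, hψ⟩ : (⟨_, Clifford.isIrrCharacter_mul_of_ker κ.ker hχ hirr (infl κ hκ β).2
        (hk β)⟩ : IrrCharacter Γ) ∈ Set.range (infl π hπ) := by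
      rw [range_infl]
      intro z hz
      change (β : Y → ℂ) (κ z) * χ z = (β : Y → ℂ) (κ 1) * χ 1
      rw [hl ⟨z, hz⟩, ← mul_assoc, (hS β).1 β.2 ⟨z, hz⟩, map_one]
    have h2 : ∀ γ, (ψ : G → ℂ) (π γ) = (β : Y → ℂ) (κ γ) * χ γ := fun γ =>
      congrFun (congrArg Subtype.val hψ) γ
    refine ⟨⟨ψ, (over_singleton_iff ψ.2.isCharacter).2 ?_⟩, h2⟩
    have h3 : (fun n => (ψ : G → ℂ) (φ n)) = (β : Y → ℂ) 1 • (θ : N → ℂ) := funext fun n => by
      rw [← hφ, h2, hθ, ← he, (e n).2]; rfl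
    rw [h3, classInner_smul_left, θ.2.inner_self, mul_one]
    exact β.1.2.apply_one_ne_zero
  choose u hu using hex
  refine ⟨Equiv.ofBijective u ⟨fun β β' h => ?_, fun ψ => ?_⟩, hu⟩
  · refine Subtype.ext (infl_injective hκ (Subtype.ext (Clifford.eq_of_mul_eq_of_ker κ.ker hχ hirr
      (infl κ hκ β).2 (infl κ hκ β').2 (hk β) (hk β') (funext fun γ => ?_))))
    exact (hu β γ).symm.trans (h ▸ hu β' γ)
  · obtain ⟨β', h2, h3, h4⟩ := Clifford.exists_mul_eq_of_over κ.ker hχ hirr (infl π hπ ψ).2 (by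
      rw [← classInner_comp_equiv e]
      simp only [he, infl_apply, hφ, hθ]
      exact (over_singleton_iff ψ.1.2.isCharacter).1 ψ.2)
    obtain ⟨β, hβ⟩ : (⟨β', h2⟩ : IrrCharacter Γ) ∈ Set.range (infl κ hκ) := by
      rw [range_infl]; exact h3
    have h5 : ∀ γ, (ψ : G → ℂ) (π γ) = (β : Y → ℂ) (κ γ) * χ γ := fun γ =>
      (congrFun h4 γ).trans (congrArg (· * χ γ) (congrFun (congrArg Subtype.val hβ) γ).symm)
    refine ⟨⟨β, (hS β).2 fun z => mul_right_cancel₀ h1 ?_⟩, Subtype.ext (Subtype.ext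
      (funext fun x => ?_))⟩
    · rw [mul_assoc, ← hl, ← h5, z.2, ← map_one κ, ← h5, map_one]
    · obtain ⟨γ, rfl⟩ := hπ x
      exact (hu _ γ).trans (h5 γ).symm

end Cfsg.Lib.DGN
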