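import Cfsg.Agent.Lib.DGN.Nil

/-! A permutation module without fixed points is free for the generic element. -/

namespace Cfsg.Lib.DGN

open Module LinearMap Submodule

theorem rank_map_le_rank_map {A k K Ω : Type*} [CommRing A] [Field k] [Field K] [Fintype Ω]
    [DecidableEq Ω] (φ : A →+* k) (c : k →+* A) (hc : ∀ x, φ (c x) = x) (ψ : A →+* K)
    (hψ : Function.Injective ψ) (U : Matrix Ω Ω A) : (U.map φ).rank ≤ (U.map ψ).rank := by
  obtain ⟨V, W, e, -, -, h⟩ := Matrix.exists_rank_normal_form (U.map φ)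
  let f : Fin (U.map φ).rank → Ω := fun i => e.symm (Sum.inl i)
  let D : Matrix (Fin (U.map φ).rank) (Fin (U.map φ).rank) A :=
    (V.map c).submatrix f _root_.id * U * (W.map c).submatrix _root_.id f
  have h1 : D.map φ = 1 := by
    have h2 : D.map φ = (V * U.map φ * W).submatrix f f := by
      ext i j
      simp [D, Matrix.mul_apply, hc]
    rw [h2, h, Matrix.submatrix_submatrix]
    ext i j
    simp [f, Matrix.one_apply]
  have h3 : D.det ≠ 0 := fun h0 => by
    have := φ.map_det D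
    rw [h0, map_zero, RingHom.mapMatrix_apply, h1, Matrix.det_one] at this
    exact zero_ne_one this
  have h4 : IsUnit (D.map ψ) := by
    rw [Matrix.isUnit_iff_isUnit_det, ← RingHom.mapMatrix_apply ψ, ← ψ.map_det, isUnit_iff_ne_zero]
    exact (map_ne_zero_iff ψ hψ).2 h3
  have h5 := Matrix.rank_of_isUnit _ h4
  rw [Fintype.card_fin] at h5
  rw [← h5]
  simp only [D, Matrix.map_mul]
  exact (Matrix.rank_mul_le_left _ _).trans (Matrix.rank_mul_le_right _ _)

theorem sum_pow_p_eq_zero {K R I : Type*} [Field K] [Ring R] [Algebra K R] (p : ℕ) [Fact p.Prime]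
    [CharP K p] (s : Finset I) (f : I → R) (hc : ∀ a b, Commute (f a) (f b))
    (h : ∀ a, f a ^ p = 0) : (∑ a ∈ s, f a) ^ p = 0 := by
  classical
  induction s using Finset.induction_on with
  | empty => simp [(Fact.out : p.Prime).ne_zero]
  | insert a s ha ih =>
    rw [Finset.sum_insert ha, add_pow_p (K := K) p (Commute.sum_right _ _ _ fun b _ => hc a b), h,
      ih, add_zero]

theorem sub_one_pow_eq_sum {K R : Type*} [Field K] [Ring R] [Algebra K R] (q : ℕ)
    [Fact (q + 1).Prime] [CharP K (q + 1)] (x : R) :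
    (x - 1) ^ q = ∑ i ∈ Finset.range (q + 1), x ^ i := by
  have h : ((Polynomial.X : Polynomial K) - 1) ^ q =
      ∑ i ∈ Finset.range (q + 1), Polynomial.X ^ i := by
    refine mul_right_cancel₀ (Polynomial.X_sub_C_ne_zero (1 : K)) ?_
    rw [map_one, geom_sum_mul, ← pow_succ, sub_pow_char, one_pow]
  have := congrArg (Polynomial.aeval x) h
  simpa using this

variable {K Ω I : Type*} [Field K]

variable (K) in
/-- Composition with a permutation. -/
def pm (σ : Equiv.Perm Ω) : Module.End K (Ω → K) := LinearMap.funLeft K K σ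

theorem pm_apply (σ : Equiv.Perm Ω) (w : Ω → K) (a : Ω) : pm K σ w a = w (σ a) := rfl

theorem pm_pow (σ : Equiv.Perm Ω) (n : ℕ) : pm K σ ^ n = pm K (σ ^ n) := by
  induction n with
  | zero => rfl
  | succ n ih => rw [pow_succ', ih, pow_succ]; rfl

theorem pm_one : pm K (1 : Equiv.Perm Ω) = 1 := rfl

theorem pm_commute {σ τ : Equiv.Perm Ω} (h : Commute σ τ) : Commute (pm K σ) (pm K τ) :=
  LinearMap.ext fun w => funext fun a => congrArg w (congrArg (fun f : Equiv.Perm Ω => f a) h.eq.symm)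

theorem ker_pm_le [Finite Ω] {q : ℕ} [hp : Fact (q + 1).Prime] [CharP K (q + 1)]
    {σ : Equiv.Perm Ω} (hσ : σ ^ (q + 1) = 1) (hf : ∀ a, σ a ≠ a) :
    ker (pm K σ - 1) ≤ range ((pm K σ - 1) ^ q) := by
  classical
  intro w hw
  have hw1 : ∀ a, w (σ a) = w a := fun a => sub_eq_zero.1 (congrFun hw a)
  have hw2 : ∀ (i : ℕ) a, w ((σ ^ i) a) = w a := by
    intro i
    induction i with
    | zero => intro a; rfl
    | succ i ih => intro a; rw [pow_succ', Equiv.Perm.mul_apply, hw1, ih]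
  let rep : Ω → Ω := fun a => (Quotient.mk (Equiv.Perm.SameCycle.setoid σ) a).out
  have hr : ∀ (i : ℕ) a, rep ((σ ^ i) a) = rep a := fun i a => by
    refine congrArg Quotient.out (Quotient.sound ?_)
    exact Equiv.Perm.SameCycle.symm ⟨i, by simp⟩
  refine ⟨fun a => if a = rep a then w a else 0, funext fun a => ?_⟩
  rw [sub_one_pow_eq_sum (K := K), LinearMap.sum_apply, Finset.sum_apply]
  have h1 : σ.SameCycle a (rep a) :=
    Equiv.Perm.SameCycle.symm (Quotient.mk_out (s := Equiv.Perm.SameCycle.setoid σ) a)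
  obtain ⟨i, hi, hia⟩ := h1.exists_pow_eq'
  have hi' : i < q + 1 := hi.trans_le (orderOf_le_of_pow_eq_one (Nat.succ_pos q) hσ)
  have hm : Function.minimalPeriod σ a = q + 1 :=
    Function.minimalPeriod_eq_prime (by
      change σ^[q + 1] a = a
      rw [← Equiv.Perm.coe_pow, hσ]; rfl) (hf a)
  rw [Finset.sum_eq_single i]
  · rw [pm_pow, pm_apply, hr, if_pos hia, hw2]
  · intro j hj hji
    rw [pm_pow, pm_apply, hr, if_neg]
    intro h
    refine hji (Function.iterate_injOn_Iio_minimalPeriod (f := σ) (x := a) ?_ ?_ ?_)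
    · rw [hm]; exact Finset.mem_range.1 hj
    · rw [hm]; exact hi'
    · simp only [← Equiv.Perm.coe_pow]; rw [h, hia]
  · intro h; exact (h (Finset.mem_range.2 hi')).elim

/-- The operator `∑ Y g • (P g - 1)` on functions. -/
def gu [Fintype I] (Y : I → K) (P : I → Equiv.Perm Ω) : Module.End K (Ω → K) :=
  ∑ g, Y g • (pm K (P g) - 1)

theorem gu_apply [Fintype I] (Y : I → K) (P : I → Equiv.Perm Ω) (w : Ω → K) (a : Ω) :
    gu Y P w a = ∑ g, Y g * (w (P g a) - w a) := by
  simp [gu, pm_apply]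

theorem gu_pow [Fintype I] {p : ℕ} [Fact p.Prime] [CharP K p] (Y : I → K) {P : I → Equiv.Perm Ω}
    (hc : ∀ g h, Commute (P g) (P h)) (hP : ∀ g, P g ^ p = 1) : gu Y P ^ p = 0 := by
  refine sum_pow_p_eq_zero (K := K) p _ _ (fun a b => ?_) fun a => ?_
  · exact (((pm_commute (hc a b)).sub_right (Commute.one_right _)).sub_left
      (Commute.one_left _)).smul_left _ |>.smul_right _
  · rw [smul_pow, sub_pow_p (K := K) p (Commute.one_right _), pm_pow, hP, pm_one, one_pow, sub_self,
      smul_zero]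

/-- The matrix of `gu`. -/
def gm {R : Type*} [CommRing R] [Fintype I] [DecidableEq Ω] (Y : I → R) (P : I → Equiv.Perm Ω) :
    Matrix Ω Ω R := fun a b => ∑ g, Y g * ((if P g a = b then 1 else 0) - if a = b then 1 else 0)

theorem gm_map {R S : Type*} [CommRing R] [CommRing S] [Fintype I] [DecidableEq Ω] (Y : I → R)
    (P : I → Equiv.Perm Ω) (φ : R →+* S) : (gm Y P).map φ = gm (fun g => φ (Y g)) P := by
  ext a b
  simp [gm, apply_ite φ]

theorem rk_gu [Fintype I] [Fintype Ω] [DecidableEq Ω] (Y : I → K) (P : I → Equiv.Perm Ω) (j : ℕ) :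
    rk (gu Y P) j = (gm Y P ^ j).rank := by
  have h : gu Y P = Matrix.toLinAlgEquiv' (gm Y P) := by
    refine LinearMap.ext fun w => funext fun a => ?_
    rw [gu_apply, Matrix.toLinAlgEquiv'_apply, Matrix.mulVec, dotProduct]
    simp only [gm, Finset.sum_mul]
    rw [Finset.sum_comm]
    refine Finset.sum_congr rfl fun g _ => ?_
    simp [mul_assoc, ← Finset.mul_sum, sub_mul]
  rw [rk, h, ← map_pow]
  rfl

section Generic
variable {k : Type*} [Field k] [Fintype I] [Algebra (MvPolynomial I k) K]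
  [FaithfulSMul (MvPolynomial I k) K] {q : ℕ} [Fact (q + 1).Prime] [CharP k (q + 1)]
  [CharP K (q + 1)]

variable (k K) in
/-- The generic point. -/
noncomputable def gy (g : I) : K := algebraMap (MvPolynomial I k) K (MvPolynomial.X g)

theorem ker_gu_le_of_free [Finite Ω] {P : I → Equiv.Perm Ω} (hc : ∀ g h, Commute (P g) (P h))
    (hP : ∀ g, P g ^ (q + 1) = 1) {g₀ : I} (hf : ∀ a, P g₀ a ≠ a) :
    ker (gu (gy K k) P ^ q) ≤ range (gu (gy K k) P) := by
  classical
  haveI := Fintype.ofFinite Ω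
  have hq : q ≠ 0 := by
    rintro rfl
    exact Nat.not_prime_one (Fact.out : (0 + 1).Prime)
  refine ker_le_range_of_finrank_le (gu_pow _ hc hP) hq ?_
  have h0 : gu (Pi.single g₀ (1 : k)) P = pm k (P g₀) - 1 := by
    rw [gu, Finset.sum_eq_single g₀] <;> simp +contextual [Pi.single_apply]
  have h1 := finrank_le_of_ker_le (α := gu (Pi.single g₀ (1 : k)) P) (gu_pow _ hc hP)
    (by rw [h0]; exact ker_pm_le (hP g₀) hf)
  rw [finrank_fintype_fun_eq_card] at h1 ⊢
  refine h1.trans (Nat.mul_le_mul_left _ ?_)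
  have h2 := rank_map_le_rank_map (MvPolynomial.eval (Pi.single g₀ (1 : k))) MvPolynomial.C
    (fun x => MvPolynomial.eval_C x) (algebraMap (MvPolynomial I k) K)
    (FaithfulSMul.algebraMap_injective _ _) (gm MvPolynomial.X P ^ q)
  rw [Matrix.map_pow, Matrix.map_pow, gm_map, gm_map] at h2
  rw [rk_gu, rk_gu]
  simp only [MvPolynomial.eval_X] at h2
  exact h2

theorem ker_gu_le [Finite Ω] {P : I → Equiv.Perm Ω} (hc : ∀ g h, Commute (P g) (P h))
    (hP : ∀ g, P g ^ (q + 1) = 1) (hf : ∀ a, ∃ g, P g a ≠ a) :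
    ker (gu (gy K k) P ^ q) ≤ range (gu (gy K k) P) := by
  intro w hw
  let gg : Ω → I := fun a => @Classical.epsilon I ⟨(hf a).choose⟩ fun g => P g a ≠ a
  have h1 : ∀ a, P (gg a) a ≠ a := fun a => Classical.epsilon_spec (hf a)
  have h2 : ∀ h a, gg (P h a) = gg a := fun h a => by
    refine congrArg (@Classical.epsilon I ⟨(hf a).choose⟩) (funext fun g => ?_)
    rw [← Equiv.Perm.mul_apply, (hc g h).eq, Equiv.Perm.mul_apply]
    simp
  let Q : ∀ g₀ : I, I → Equiv.Perm {a // gg a = g₀} := fun g₀ h =>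
    (P h).subtypePerm fun a => by rw [h2]
  let rs : ∀ g₀ : I, (Ω → K) →ₗ[K] ({a // gg a = g₀} → K) := fun g₀ =>
    LinearMap.funLeft K K Subtype.val
  have h3 : ∀ g₀ x, rs g₀ (gu (gy K k) P x) = gu (gy K k) (Q g₀) (rs g₀ x) := fun g₀ x =>
    funext fun a => by
      rw [gu_apply]
      exact gu_apply _ _ _ _
  have h4 : ∀ g₀ (j : ℕ) x, rs g₀ ((gu (gy K k) P ^ j) x) = (gu (gy K k) (Q g₀) ^ j) (rs g₀ x) := by
    intro g₀ j
    induction j with
    | zero => intro x; rfl
    | succ j ih =>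
      intro x
      rw [pow_succ', pow_succ', Module.End.mul_apply, Module.End.mul_apply, h3, ih]
  have h5 : ∀ g₀, ∃ z, gu (gy K k) (Q g₀) z = rs g₀ w := fun g₀ => by
    refine ker_gu_le_of_free (q := q) (g₀ := g₀) (fun g h => ?_) (fun g => ?_) (fun a h => ?_) ?_
    · exact Equiv.ext fun a => Subtype.ext (congrArg (fun f : Equiv.Perm Ω => f a) (hc g h).eq)
    · simp only [Q, Equiv.Perm.subtypePerm_pow, hP]
      rfl
    · have := congrArg Subtype.val h
      obtain ⟨a, rfl⟩ := a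
      exact h1 a this
    · rw [mem_ker, ← h4, mem_ker.1 hw, map_zero]
  choose z hz using h5
  refine ⟨fun a => z (gg a) ⟨a, rfl⟩, funext fun a => ?_⟩
  have h6 : rs (gg a) (fun a => z (gg a) ⟨a, rfl⟩) = z (gg a) := funext fun b => by
    generalize gg a = g at b
    obtain ⟨b, rfl⟩ := b
    rfl
  have h7 := h3 (gg a) fun a => z (gg a) ⟨a, rfl⟩
  rw [h6, hz] at h7
  exact congrFun h7 ⟨a, rfl⟩

end Generic

end Cfsg.Lib.DGN
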