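import Cfsg.Agent.Lib.DGN.Gal

/-! The perfect isometry over an invariant character of a normal `p'`-subgroup. -/

namespace Cfsg.Lib.DGN

open _root_.Cfsg.Lib.Block MonoidAlgebra Module Cfsg.Lib.Transfer Subgroup Cfsg.Lib.Char

variable {Γ G Y : Type*} [Group Γ] [Group G] [Group Y] {p : ℕ} [hp : Fact p.Prime]
  {π : Γ →* G} {κ : Γ →* Y}

theorem not_dvd_card_ker [Finite Γ] {m : ℕ} (hm : ¬ p ∣ m) (hker : ∀ γ, π γ = 1 → γ ^ m = 1) :
    ¬ p ∣ Nat.card π.ker := fun h => by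
  obtain ⟨x, hx⟩ := exists_prime_orderOf_dvd_card' p h
  exact hm (hx ▸ orderOf_dvd_of_pow_eq_one (Subtype.ext (hker x x.2)))

theorem exists_lift (hc : ∀ z, π z = 1 → ∀ γ, z * γ = γ * z) {m : ℕ} (hm : ¬ p ∣ m)
    (hker : ∀ γ, π γ = 1 → γ ^ m = 1) {P : Subgroup G} (hP : IsPGroup p P)
    (hab : ∀ x ∈ P, ∀ y ∈ P, x * y = y * x) (hr : P ≤ π.range)
    (hn : ∀ γ, π γ ∈ normalizer (P : Set G)) : ∃ R : Subgroup Γ, R.Normal ∧ IsPGroup p R ∧
      (∀ g ∈ R, ∀ g' ∈ R, g * g' = g' * g) ∧ R.map π = P := by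
  have hcop : ∀ k, m.Coprime (p ^ k) := fun k =>
    ((Nat.Prime.coprime_iff_not_dvd hp.out).2 hm).symm.pow_right k
  have h1 : ∀ a, π a ∈ P → ∃ k, π (a ^ p ^ k) = 1 := fun a ha => by
    obtain ⟨k, hk⟩ := hP ⟨_, ha⟩
    exact ⟨k, by rw [map_pow]; exact congrArg Subtype.val hk⟩
  have h2 : ∀ a b, π a ∈ P → π b ∈ P → Commute a b := fun a b ha hb => by
    have hz : π (a * b * a⁻¹ * b⁻¹) = 1 := by simp [hab _ ha _ hb]
    have h3 : ∀ n : ℕ, a ^ n * b = (a * b * a⁻¹ * b⁻¹) ^ n * (b * a ^ n) := fun n => by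
      induction n with
      | zero => simp
      | succ n ih =>
        rw [pow_succ', mul_assoc, ih, ← mul_assoc,
          ← hc _ (by rw [map_pow, hz, one_pow]) a, pow_succ]
        simp only [mul_assoc, inv_mul_cancel_left]
    obtain ⟨k, hk⟩ := h1 a ha
    have h4 := h3 (p ^ k)
    rw [hc _ hk, eq_comm, mul_eq_right] at h4
    have h5 := pow_gcd_eq_one.2 ⟨hker _ hz, h4⟩
    rwa [(hcop k).gcd_eq_one, pow_one, mul_inv_eq_one, mul_inv_eq_iff_eq_mul] at h5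
  refine ⟨{ carrier := {a | π a ∈ P ∧ ∃ k, a ^ p ^ k = 1}
            one_mem' := ⟨by simp, 0, one_pow _⟩
            mul_mem' := fun {a b} ⟨ha, i, hi⟩ ⟨hb, j, hj⟩ => ⟨map_mul π a b ▸ mul_mem ha hb, i + j, by
              rw [(h2 a b ha hb).mul_pow, pow_add, pow_mul, hi, mul_comm (p ^ i), pow_mul, hj]; simp⟩
            inv_mem' := fun {a} ⟨ha, i, hi⟩ => ⟨map_inv π a ▸ inv_mem ha, i, by
              rw [inv_pow, hi, inv_one]⟩ },
    ⟨fun a ⟨ha, i, hi⟩ g => ⟨?_, i, by rw [conj_pow, hi]; simp⟩⟩,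
    fun a => a.2.2.imp fun k hk => Subtype.ext hk, fun a ha b hb => h2 a b ha.1 hb.1,
    le_antisymm (by rintro _ ⟨a, ha, rfl⟩; exact ha.1) fun x hx => ?_⟩
  · rw [map_mul, map_mul, map_inv]
    exact (mem_normalizer_iff.1 (hn g) _).1 ha
  · obtain ⟨a, rfl⟩ := hr hx
    obtain ⟨k, hk⟩ := h1 a hx
    obtain ⟨j, hj⟩ := exists_pow_eq_self_of_coprime (x := π a) (n := m)
      ((hcop k).coprime_dvd_right (orderOf_dvd_of_pow_eq_one (by rw [← map_pow, hk])))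
    refine ⟨(a ^ m) ^ j, ⟨by simp only [map_pow, hj, hx], k, ?_⟩, by simp only [map_pow, hj]⟩
    rw [← pow_mul, ← pow_mul, mul_comm j, ← mul_assoc, mul_comm m, pow_mul, pow_mul, hker _ hk,
      one_pow]

variable {M : Ideal AlgInt} [Modular p M]

theorem side [Finite Γ] [Finite G] [Finite Y] {N : Type*} [Group N] [Finite N]
    (hπ : Function.Surjective π) (hκ : Function.Surjective κ)
    (hc : ∀ z, π z = 1 → ∀ γ, z * γ = γ * z) (h1 : ¬ p ∣ Nat.card π.ker) {ι : N →* Γ}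
    (hι : Function.Injective ι) (hικ : ι.range = κ.ker) (hN : ¬ p ∣ Nat.card N) {φ : N →* G}
    (hφ : ∀ n, π (ι n) = φ n) {θ : IrrCharacter N} {d : ℕ} {σ : Representation ℂ Γ (Fin d → ℂ)}
    (hθ : ∀ n, σ.character (ι n) = (θ : N → ℂ) n) {l : Γ → ℂ} (hl : ∀ z, π z = 1 → σ z = l z • 1)
    {S : Set (IrrCharacter Y)}
    (hS : ∀ β, β ∈ S ↔ ∀ z, π z = 1 → (β : Y → ℂ) (κ z) * l z = (β : Y → ℂ) 1) :
    ∃ u : S ≃ {ψ : IrrCharacter G | Over φ (ψ : G → ℂ) {θ}}, ∀ x, ∃ y, ∃ a ∈ locRing M,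
      (∀ β, (u β : G → ℂ) x = (β : Y → ℂ) y * a) ∧ (p ∣ orderOf x ↔ p ∣ orderOf y) ∧ ∀ v,
      (∑ᶠ β : S, (β : Y → ℂ) y * (β : Y → ℂ) v) / Nat.card (centralizer ({x} : Set G)) ∈
        locRing M ∧
      (∑ᶠ β : S, (β : Y → ℂ) y * (β : Y → ℂ) v ≠ 0 → (p ∣ orderOf x ↔ p ∣ orderOf v)) := by
  have h2 : ¬ p ∣ Nat.card κ.ker := by
    rwa [← hικ, ← Nat.card_congr (MonoidHom.ofInjective hι).toEquiv]
  have h3 : ∀ z, π z = 1 → σ.character z = l z * σ.character 1 := fun z hz => by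
    simp only [Representation.character, hl z hz, map_smul, map_one, smul_eq_mul]
  have h4 : σ.character 1 ≠ 0 := by
    rw [← map_one ι, hθ]; exact θ.2.apply_one_ne_zero
  have h5 : (1 : Module.End ℂ (Fin d → ℂ)) ≠ 0 := fun h => h4 (by
    rw [Representation.character, map_one, h, map_zero])
  let l' : π.ker →* ℂ :=
    { toFun := fun z => l z
      map_one' := smul_left_injective ℂ h5 (by
        simp only [OneMemClass.coe_one, ← hl 1 (map_one π), map_one, one_smul])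
      map_mul' := fun z w => smul_left_injective ℂ h5 (by
        refine (hl _ (z * w).2).symm.trans ?_
        simp only [coe_mul, map_mul, hl _ z.2, hl _ w.2, smul_mul_smul_comm, mul_one]) }
  have hS' : ∀ β, β ∈ S ↔ ∀ z : π.ker, (β : Y → ℂ) (κ z) * l' z = (β : Y → ℂ) 1 := fun β =>
    (hS β).trans ⟨fun h z => h z z.2, fun h z hz => h ⟨z, hz⟩⟩
  obtain ⟨u, hu⟩ := exists_gallagher hπ hκ hι hικ hφ (isCharacter_character σ) hθ (l := l')
    (fun z => h3 z z.2) hS'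
  refine ⟨u, fun x => ?_⟩
  obtain ⟨γ, rfl⟩ := hπ x
  exact ⟨κ γ, _, char_mem (isCharacter_character σ) γ, fun β => hu β γ,
    by rw [dvd_orderOf_map_iff h1, dvd_orderOf_map_iff h2],
    kernel_good hπ hκ hc h1 h2 l' hS' γ⟩

theorem perfK_of_sides {H ι : Type*} [Group H] [Finite ι] {a : ι → G → ℂ} {b : ι → H → ℂ}
    {β : ι → Y → ℂ} (ha : ∀ x, ∃ y, ∃ s ∈ locRing M, (∀ i, a i x = β i y * s) ∧
      (p ∣ orderOf x ↔ p ∣ orderOf y) ∧ ∀ v,
      (∑ᶠ i, β i y * β i v) / Nat.card (centralizer ({x} : Set G)) ∈ locRing M ∧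
      (∑ᶠ i, β i y * β i v ≠ 0 → (p ∣ orderOf x ↔ p ∣ orderOf v)))
    (hb : ∀ x, ∃ y, ∃ s ∈ locRing M, (∀ i, b i x = β i y * s) ∧
      (p ∣ orderOf x ↔ p ∣ orderOf y) ∧ ∀ v,
      (∑ᶠ i, β i y * β i v) / Nat.card (centralizer ({x} : Set H)) ∈ locRing M ∧
      (∑ᶠ i, β i y * β i v ≠ 0 → (p ∣ orderOf x ↔ p ∣ orderOf v))) : PerfK p M a b := fun x y => by
  obtain ⟨v, s, hs, h1, -, h3⟩ := ha x
  obtain ⟨w, t, ht, h4, h5, h6⟩ := hb y
  haveI := Fintype.ofFinite ι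
  have h7 : ∑ᶠ i, a i x * b i y = s * t * ∑ᶠ i, β i v * β i w := by
    simp only [finsum_eq_sum_of_fintype, Finset.mul_sum, h1, h4]
    exact Finset.sum_congr rfl fun _ _ => by ring
  rw [h7, mul_div_assoc, mul_div_assoc]
  refine ⟨mul_mem (mul_mem hs ht) (h3 w).1, mul_mem (mul_mem hs ht) ?_,
    fun h => ((h3 w).2 (right_ne_zero_of_mul h)).trans h5.symm⟩
  simpa only [mul_comm] using (h6 v).1

variable [Finite G] {N P : Subgroup G}

theorem perf_of_cover [Finite Γ] [hNn : N.Normal] (hN : ¬ p ∣ Nat.card N) {θ : IrrCharacter N}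
    {d : ℕ} {ρ : Representation ℂ N (Fin d → ℂ)} [hρ : ρ.IsIrreducible] (hθ : ρ.character = θ)
    {σ : Representation ℂ Γ (Fin d → ℂ)} (hσ : Intw π ρ σ) (hπ : Function.Surjective π)
    (hc : ∀ z, π z = 1 → ∀ γ, z * γ = γ * z) {m : ℕ} (hm : ¬ p ∣ m)
    (hker : ∀ γ, π γ = 1 → γ ^ m = 1) {ι : N →* Γ} [ι.range.Normal] (hι : ∀ n, π (ι n) = n)
    (hι' : ∀ n, σ (ι n) = ρ n) (hP : IsPGroup p P) (hab : ∀ x ∈ P, ∀ y ∈ P, x * y = y * x)
    (hG : N ⊔ normalizer (P : Set G) = ⊤) :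
    ∃ θ' : IrrCharacter (N ⊓ centralizer (P : Set G) : Subgroup G),
      br P (ebl N M {θ}) = ebl _ M {θ'} ∧
      Perf p M {ψ : IrrCharacter G | Over N.subtype (ψ : G → ℂ) {θ}}
        {η : IrrCharacter (normalizer (P : Set G)) | Over (inclusion
          (inf_le_right.trans (centralizer_le_normalizer _))) (η : _ → ℂ) {θ'}} := by
  classical
  haveI := nontrivial_of_isIrreducible ρ
  have hl0 : ∀ γ, ∃ c : ℂ, ∀ n : N, (n : G) = π γ → σ γ = c • ρ n := fun γ => by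
    by_cases h : π γ ∈ N
    · obtain ⟨c, hc⟩ := hσ.exists_smul (n := ⟨_, h⟩) rfl
      exact ⟨c, fun n hn => by rwa [show n = ⟨_, h⟩ from Subtype.ext hn]⟩
    · exact ⟨0, fun n hn => (h (hn ▸ n.2)).elim⟩
  choose l hl using hl0
  have hl1 : ∀ n, l (ι n) = 1 := fun n => smul_left_injective ℂ (ρ.asGroupHom n).ne_zero (by
    change l (ι n) • ρ n = (1 : ℂ) • ρ n
    rw [← hl _ n (hι n).symm, hι', one_smul])
  have hιi : Function.Injective ι := fun a b h => Subtype.ext (by rw [← hι, h, hι])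
  let H := normalizer (P : Set G)
  let Δ := H.comap π
  let π₁ := π.comp Δ.subtype
  have hNπ : ∀ γ, π₁ γ ∈ normalizer (N : Set G) := fun γ => le_normalizer_top trivial
  obtain ⟨R, hRn, hR, hRab, hRP⟩ := exists_lift (π := π₁)
    (fun z hz γ => Subtype.ext (hc z hz γ)) hm (fun γ h => Subtype.ext (hker γ h)) hP hab
    (fun x hx => by obtain ⟨γ, rfl⟩ := hπ x; exact ⟨⟨γ, le_normalizer hx⟩, rfl⟩) fun γ => γ.2
  obtain ⟨k, hk⟩ := hP.exists_card_eq
  have hE := Ext.br (M := M) (π := π₁) (l := fun γ => l γ) hm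
    (fun γ h => Subtype.ext (hker γ h)) hR hRab k
    ⟨θ, d, ρ, σ.comp Δ.subtype, rfl, hρ, hθ, fun γ => hσ γ, fun γ => hl γ⟩ hNπ hN fun g hg => by
      have : π₁ g ^ p ^ k = 1 := by
        rw [← hk]
        exact congrArg Subtype.val (pow_card_eq_one' (x := (⟨π₁ g, hRP ▸ ⟨g, hg, rfl⟩⟩ : P)))
      rw [this]; exact one_mem _
  rw [hRP] at hE
  obtain ⟨θ', d', ρ', σ', h1, hρ', hθ', -, hl'⟩ := hE
  refine ⟨θ', h1, ?_⟩
  let κ := QuotientGroup.mk' ι.range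
  let S : Set (IrrCharacter (Γ ⧸ ι.range)) :=
    {β | ∀ z, π z = 1 → β.1 (κ z) * l z = β.1 1}
  obtain ⟨u, hu⟩ := side (M := M) (S := S) (φ := N.subtype) hπ (QuotientGroup.mk'_surjective _) hc
    (not_dvd_card_ker hm hker) hιi (QuotientGroup.ker_mk' _).symm hN hι (σ := σ)
    (fun n => by rw [← hθ, Representation.character, hι']; rfl) (l := l)
    (fun z hz => by rw [hl z 1 hz.symm, map_one]) fun _ => Iff.rfl
  let ι' : (N ⊓ centralizer (P : Set G) : Subgroup G) →* Δ :=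
    (ι.comp (inclusion inf_le_left)).codRestrict Δ fun n => by
      change π (ι _) ∈ H
      rw [hι]; exact centralizer_le_normalizer _ n.2.2
  have hι₁ : ∀ n, π₁ (ι' n) = n := fun n => hι _
  have hker' : ∀ z : Δ, π.subgroupComap H z = 1 ↔ π z = 1 := fun z => Subtype.ext_iff
  obtain ⟨u', hu'⟩ := side (M := M) (S := S) (π := π.subgroupComap H) (κ := κ.comp Δ.subtype)
    (φ := inclusion (inf_le_right.trans (centralizer_le_normalizer _)))
    (π.subgroupComap_surjective_of_surjective _ hπ) (fun y => by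
      obtain ⟨γ, rfl⟩ := QuotientGroup.mk'_surjective _ y
      obtain ⟨n, hn, h, hh, e⟩ := mem_sup_of_normal_left.1 (hG ▸ mem_top (π γ))
      refine ⟨⟨(ι ⟨n, hn⟩)⁻¹ * γ, ?_⟩, ?_⟩
      · change π _ ∈ H
        rw [map_mul, map_inv, hι, ← e, inv_mul_cancel_left]; exact hh
      · change κ (_ * γ) = κ γ
        rw [map_mul, show κ _ = 1 from (QuotientGroup.eq_one_iff _).2 (inv_mem ⟨_, rfl⟩),
          one_mul])
    (fun z hz γ => Subtype.ext (hc z ((hker' z).1 hz) γ))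
    (not_dvd_card_ker hm fun γ h => Subtype.ext (hker γ ((hker' γ).1 h))) (ι := ι')
    (fun a b h => Subtype.ext (by rw [← hι₁, h, hι₁])) (le_antisymm
      (by rintro _ ⟨n, rfl⟩; exact (QuotientGroup.eq_one_iff _).2 ⟨_, rfl⟩) fun γ hγ => by
        obtain ⟨n, hn⟩ := (QuotientGroup.eq_one_iff _).1 (MonoidHom.mem_ker.1 hγ)
        have hn' : (n : G) ∈ H := by rw [← hι, hn]; exact γ.2
        refine ⟨⟨n, n.2, fun x hx => ?_⟩, Subtype.ext hn⟩
        have h2 : x * n * x⁻¹ * (n : G)⁻¹ ∈ N ⊓ P := mem_inf.2 ⟨mul_mem (hNn.conj_mem _ n.2 _) (inv_mem n.2), by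
          rw [mul_assoc, mul_assoc, ← mul_assoc (n : G)]
          exact mul_mem hx ((mem_normalizer_iff.1 hn' _).1 (inv_mem hx))⟩
        obtain ⟨j, hj⟩ := hP ⟨_, h2.2⟩
        have h3 := pow_gcd_eq_one.2 ⟨congrArg Subtype.val (pow_card_eq_one' (x := (⟨_, h2.1⟩ : N))),
          congrArg Subtype.val hj⟩
        rwa [Nat.Coprime.gcd_eq_one (((Nat.Prime.coprime_iff_not_dvd hp.out).2 hN).symm.pow_right j),
          pow_one, mul_inv_eq_one, mul_inv_eq_iff_eq_mul] at h3)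
    (fun h => hN (h.trans (card_dvd_of_le inf_le_left))) (fun n => Subtype.ext (hι₁ n)) (θ := θ')
    (σ := σ') (fun n => by
      rw [← hθ', Representation.character, hl' _ n (hι₁ n).symm]
      change LinearMap.trace _ _ (l (ι _) • _) = _
      rw [hl1, one_smul]; rfl) (l := fun γ => l γ)
    (fun z hz => by rw [hl' z 1 ((hker' z).1 hz).symm, map_one])
    fun β => ⟨fun h z hz => h z ((hker' z).1 hz), fun h z hz =>
      h ⟨z, show π z ∈ H from hz ▸ one_mem _⟩ (Subtype.ext hz)⟩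
  exact perf_of_index u u' (perfK_of_sides hu hu')

omit [Modular p M] in
theorem eq_over_of_ebl_eq {M : Ideal AlgInt} [M.IsPrime] {K H : Subgroup G} (hKH : K ≤ H)
    (hH : H ≤ normalizer (K : Set G)) {c : Set (IrrCharacter H)} {b : Set (IrrCharacter K)}
    (hc : IsPBlock M c) (hb : IsPBlock M b) (h : ebl H M c = ebl K M b) :
    c = {η : IrrCharacter H | Over (inclusion hKH) (η : H → ℂ) b} := by
  have h1 : fblk c = emb (inclusion hKH) (fblk b) := emb_injective H.subtype_injective (by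
    rw [emb_emb]
    exact fbl_eq_of_ebl_eq_of_le hKH hH hc.fblk_mem_SG hb.fblk_mem_SG h)
  exact fblk_injective (h1.trans (emb_fblk_eq (h1 ▸ fblk_mem_fix c)))

theorem perf_inv [hNn : N.Normal] (hN : ¬ p ∣ Nat.card N) {B : Set (IrrCharacter G)}
    (hB : IsPBlock M B) (h : IsBlkIdem N M (eblk M B)) (hP : IsPGroup p P)
    (hab : ∀ x ∈ P, ∀ y ∈ P, x * y = y * x) (hG : N ⊔ normalizer (P : Set G) = ⊤)
    {c : Set (IrrCharacter (normalizer (P : Set G)))} (hc : IsPBlock M c)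
    (h' : ebl _ M c = br P (eblk M B)) : Perf p M B c := by
  obtain ⟨_, ⟨θ, rfl⟩, hθ⟩ := h
  rw [blockOf_eq_singleton_of_not_dvd hN] at hθ
  have hb := isPBlock_singleton_of_not_dvd (M := M) hN θ
  obtain ⟨d, ρ, hρ, hχ⟩ := θ.2
  have hπ : ∀ g, MonoidHom.id G g ∈ normalizer (N : Set G) := fun _ => le_normalizer_top trivial
  have hd : ¬ p ∣ finrank ℂ (Fin d → ℂ) := fun h0 =>
    hN (h0.trans (θ.2.degree_dvd_card (by rw [← hχ, Representation.char_one])))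
  choose ι₀ h1 h2 using fun n : N => exists_cov_eq hπ ρ n n rfl
  let ι : N →* cov hπ ρ := MonoidHom.mk' ι₀ fun a b =>
    cov_ext hπ ρ (by simp only [map_mul, h1, coe_mul]) (by simp only [map_mul, h2])
  haveI : ι.range.Normal := ⟨by
    rintro _ ⟨n, rfl⟩ γ
    refine ⟨⟨_, hNn.conj_mem _ n.2 (covFst hπ ρ γ)⟩, eq_mul_inv_of_mul_eq (cov_ext hπ ρ ?_ ?_)⟩
    · simp only [map_mul, ι, MonoidHom.mk'_apply, h1, inv_mul_cancel_right]
    · simp only [map_mul, ι, MonoidHom.mk'_apply, h2]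
      exact (intw_cov hπ ρ γ n _ rfl).symm⟩
  obtain ⟨θ', h3, h4⟩ := perf_of_cover (M := M) (π := covFst hπ ρ) hN hχ (intw_cov hπ ρ)
    (covFst_surjective hπ ρ fun g => hχ ▸ invariant_of_cj_eq (M := M) hN (hπ g)
      (hθ ▸ eblk_mem_fix B _ trivial)) (fun _ => cov_comm hπ ρ)
    (fun h0 => (hp.out.dvd_mul.1 h0).elim hd hN) (fun _ => cov_pow_eq_one hπ ρ) (ι := ι) h1 h2 hP
    hab hG
  have h5 := fblk_eq_fbl_of_normal hB.fblk_mem_SG hb.fblk_mem_SG hθ
  rw [fblk_injective (h5.trans (emb_fblk_eq (h5 ▸ fblk_mem_fix B : fbl N {θ} ∈ _))), eq_over_of_ebl_eq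
    (inf_le_right.trans (centralizer_le_normalizer _))
    (fun g hg => by
      have := normalizer_inf_centralizer (π := (normalizer (P : Set G)).subtype) (N := N)
        (fun _ => le_normalizer_top trivial) (P.subgroupOf _) ⟨g, hg⟩
      rwa [map_subgroupOf_eq_of_le le_normalizer] at this) hc
    (isPBlock_singleton_of_not_dvd (fun h => hN (h.trans (card_dvd_of_le inf_le_left))) θ')
    (by rw [h', hθ, h3])]
  exact h4

end Cfsg.Lib.DGN
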