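import Cfsg.Agent.Lib.DGN.Step

/-! From complex representations to elements of the modular group algebra. -/

namespace Cfsg.Lib.DGN

open _root_.Cfsg.Lib.Block MonoidAlgebra Module Cfsg.Lib.Transfer Subgroup Cfsg.Lib.Char
open scoped ComplexConjugate

section Schur
variable {N V : Type*} [Group N] [AddCommGroup V] [Module ℂ V] [FiniteDimensional ℂ V]
  (ρ : Representation ℂ N V)

theorem sum_conj_eq [Fintype N] [ρ.IsIrreducible] (B : Module.End ℂ V) :
    ∑ n, ρ n * B * ρ n⁻¹ = ((Nat.card N : ℂ) / finrank ℂ V * LinearMap.trace ℂ V B) • 1 := by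
  obtain ⟨c, hc⟩ := exists_eq_smul_of_commute ρ (∑ n, ρ n * B * ρ n⁻¹) fun x => by
    rw [← Module.End.mul_eq_comp, ← Module.End.mul_eq_comp, Finset.sum_mul, Finset.mul_sum]
    refine Fintype.sum_equiv (Equiv.mulLeft x⁻¹) _ _ fun g => ?_
    simp only [Equiv.coe_mulLeft, mul_inv_rev, inv_inv, map_mul, ← mul_assoc]
    rw [← map_mul ρ x, mul_inv_cancel, map_one, one_mul]
  have h1 := congrArg (LinearMap.trace ℂ V) hc
  rw [map_sum, map_smul, LinearMap.trace_id, Finset.sum_congr rfl fun n _ => by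
    rw [LinearMap.trace_mul_comm, ← mul_assoc, ← map_mul, inv_mul_cancel, map_one, one_mul],
    Finset.sum_const, Finset.card_univ, nsmul_eq_mul, smul_eq_mul, ← Nat.card_eq_fintype_card] at h1
  have h2 : (finrank ℂ V : ℂ) ≠ 0 := Nat.cast_ne_zero.2 (finrank_pos_of_isIrreducible ρ).ne'
  rw [hc, div_mul_eq_mul_div, h1, mul_div_cancel_right₀ _ h2]
  rfl

theorem sum_trace_smul [Fintype N] [ρ.IsIrreducible] (A : Module.End ℂ V) :
    ∑ n, LinearMap.trace ℂ V (A * ρ n⁻¹) • ρ n = ((Nat.card N : ℂ) / finrank ℂ V) • A := by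
  let b := Module.finBasis ℂ V
  have htr : ∀ T : Module.End ℂ V, LinearMap.trace ℂ V T = ∑ i, b.coord i (T (b i)) := fun T => by
    rw [LinearMap.trace_eq_matrix_trace ℂ b T]
    simp [Matrix.trace, LinearMap.toMatrix_apply]
  refine LinearMap.ext fun v => ?_
  have h := fun i => LinearMap.congr_fun (sum_conj_eq ρ ((b.coord i ∘ₗ A).smulRight v)) (b i)
  simp only [LinearMap.sum_apply, Module.End.mul_apply, LinearMap.smulRight_apply, map_smul,
    LinearMap.trace_smulRight, LinearMap.comp_apply, LinearMap.smul_apply,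
    Module.End.one_apply] at h
  simp only [LinearMap.sum_apply, LinearMap.smul_apply, htr, Finset.sum_smul, Module.End.mul_apply]
  rw [Finset.sum_comm, Finset.sum_congr rfl fun i _ => h i]
  simp only [mul_smul, ← Finset.smul_sum]
  rw [← b.sum_repr (A v)]
  simp

/-- The inverse of the representation on the block of its character. -/
noncomputable def psi [Finite N] : Module.End ℂ V →ₗ[ℂ] ℂ[N] where
  toFun A := ofFun fun n => (finrank ℂ V : ℂ) / Nat.card N * LinearMap.trace ℂ V (A * ρ n⁻¹)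
  map_add' A B := ext_coeff fun n => by simp [coeff_add', add_mul, mul_add]
  map_smul' c A := ext_coeff fun n => by simp [coeff_smul', mul_left_comm]

theorem coeff_psi [Finite N] (A : Module.End ℂ V) (n : N) : (psi ρ A).coeff n =
    (finrank ℂ V : ℂ) / Nat.card N * LinearMap.trace ℂ V (A * ρ n⁻¹) := rfl

theorem psi_mul [Finite N] [ρ.IsIrreducible] (A B : Module.End ℂ V) :
    psi ρ (A * B) = psi ρ A * psi ρ B := by
  haveI := Fintype.ofFinite N
  refine ext_coeff fun m => ?_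
  have h := congrArg (fun T => LinearMap.trace ℂ V (B * ρ m⁻¹ * T)) (sum_trace_smul ρ A)
  simp only [Finset.mul_sum, map_sum, mul_smul_comm, map_smul, smul_eq_mul] at h
  have h2 : (finrank ℂ V : ℂ) ≠ 0 := Nat.cast_ne_zero.2 (finrank_pos_of_isIrreducible ρ).ne'
  have h3 := card_ne_zero_complex N
  rw [coeff_mul_left]
  simp only [coeff_psi, mul_inv_rev, inv_inv, map_mul, ← mul_assoc B]
  rw [Finset.sum_congr rfl fun n _ => mul_mul_mul_comm _ _ _ _, ← Finset.mul_sum, h, mul_assoc A,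
    LinearMap.trace_mul_comm ℂ A]
  field_simp

theorem psi_rep_mul [Finite N] (n : N) (A : Module.End ℂ V) :
    psi ρ (ρ n * A) = of ℂ N n * psi ρ A := ext_coeff fun m => by
  rw [coeff_of_mul, coeff_psi, coeff_psi, mul_inv_rev, inv_inv, map_mul ρ, ← mul_assoc A,
    LinearMap.trace_mul_comm ℂ _ (ρ n), mul_assoc (ρ n)]

theorem psi_mul_rep [Finite N] (n : N) (A : Module.End ℂ V) :
    psi ρ (A * ρ n) = psi ρ A * of ℂ N n := ext_coeff fun m => by
  rw [coeff_mul_of, coeff_psi, coeff_psi, mul_inv_rev, inv_inv, map_mul ρ, mul_assoc A]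

theorem psi_one [Finite N] {θ : IrrCharacter N} (h : ρ.character = θ) : psi ρ 1 = fblk {θ} :=
  ext_coeff fun m => by
    change _ = blockCoeff {θ} m
    rw [coeff_psi, one_mul, blockCoeff, finsum_mem_singleton, ← θ.2.isCharacter.apply_inv, ← h,
      Representation.char_one, div_eq_inv_mul, mul_assoc]
    rfl

omit ρ in
theorem isIntegral_trace {A : Module.End ℂ V} {m : ℕ} (hm : m ≠ 0) (h : A ^ m = 1) :
    IsIntegral ℤ (LinearMap.trace ℂ V A) := by
  let u := Units.ofPowEqOne A m h hm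
  haveI : Finite (zpowers u) := finite_zpowers.2 (isOfFinOrder_iff_pow_eq_one.2
    ⟨m, Nat.pos_of_ne_zero hm, Units.ext (by simpa [u] using h)⟩)
  exact (isCharacter_character ((Units.coeHom _).comp (zpowers u).subtype :
    Representation ℂ (zpowers u) V)).isIntegral ⟨u, mem_zpowers u⟩

end Schur

variable {G : Type*} [Group G] {Γ : Type*} [Group Γ] {π : Γ →* G} {N : Subgroup G}
  {V : Type*} [AddCommGroup V] [Module ℂ V] {ρ : Representation ℂ N V} {σ : Representation ℂ Γ V}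

/-- `σ` induces on `ρ` the conjugation action through `π`. -/
def Intw (π : Γ →* G) (ρ : Representation ℂ N V) (σ : Representation ℂ Γ V) : Prop :=
  ∀ γ (n m : N), (m : G) = π γ * n * (π γ)⁻¹ → σ γ * ρ n = ρ m * σ γ

theorem Intw.exists_pow (h : Intw π ρ σ) (hπ : ∀ γ, π γ ∈ normalizer (N : Set G)) (γ : Γ) (n : N)
    (k : ℕ) : ∃ n' : N, (σ γ * ρ n) ^ k = ρ n' * σ (γ ^ k) := by
  induction k with
  | zero => exact ⟨1, by simp⟩
  | succ k ih =>
    obtain ⟨n', ih⟩ := ih
    let a : N := ⟨π γ * n' * (π γ)⁻¹, (mem_normalizer_iff.1 (hπ γ) _).1 n'.2⟩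
    let b : N := ⟨π γ * n * (π γ)⁻¹, (mem_normalizer_iff.1 (hπ γ) _).1 n.2⟩
    refine ⟨b * a, ?_⟩
    rw [pow_succ', ih, h γ n b rfl, mul_assoc, ← mul_assoc (σ γ), h γ n' a rfl, pow_succ', map_mul,
      map_mul, mul_assoc, mul_assoc]

theorem Intw.isIntegral [Finite Γ] [Finite N] [FiniteDimensional ℂ V] (h : Intw π ρ σ)
    (hπ : ∀ γ, π γ ∈ normalizer (N : Set G)) (γ : Γ) (n : N) :
    IsIntegral ℤ (LinearMap.trace ℂ V (σ γ * ρ n)) := by
  obtain ⟨n', hn⟩ := h.exists_pow hπ γ n (Nat.card Γ)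
  refine isIntegral_trace (m := Nat.card Γ * Nat.card N)
    (mul_ne_zero Nat.card_pos.ne' Nat.card_pos.ne') ?_
  rw [pow_mul, hn, pow_card_eq_one', map_one, mul_one, ← map_pow, pow_card_eq_one', map_one]

variable [Finite G] {p : ℕ} [hp : Fact p.Prime] {M : Ideal AlgInt} [Modular p M]

theorem Intw.exists_fac [Finite Γ] [FiniteDimensional ℂ V] [ρ.IsIrreducible] (h : Intw π ρ σ)
    (hπ : ∀ γ, π γ ∈ normalizer (N : Set G)) (hN : ¬ p ∣ Nat.card N) {θ : IrrCharacter N}
    (hθ : ρ.character = θ) : ∃ s, Fac π N (ebl N M {θ}) s ∧ ∀ γ (n : N), ∀ c ∈ locRing M,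
      σ γ = c • ρ n → s γ = red M c • (of (Res M) G n * ebl N M {θ}) := by
  have hS : ∀ γ, psi ρ (σ γ) ∈ SG N M := fun γ n => by
    rw [coeff_psi, div_eq_mul_inv]
    exact mul_mem (mul_mem (natCast_mem _ _) (natCast_inv_mem hN))
      (mem_locRing_of_isIntegral (h.isIntegral hπ γ n⁻¹))
  have hf : fblk {θ} ∈ SG N M := by rw [← psi_one ρ hθ, ← map_one σ]; exact hS 1
  refine ⟨fun γ => emb N.subtype (redA M (psi ρ (σ γ))), ⟨fun γ => emb_subtype_mem_supp _ _, ?_,
    fun γ δ => ?_, fun γ a ha => ?_⟩, fun γ n c hc hγ => ?_⟩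
  · simp only [map_one, psi_one ρ hθ]; rfl
  · simp only [map_mul, psi_mul, redA_mul (hS _) (hS _)]
  · haveI := Fintype.ofFinite N
    rw [← emb_res_subtype_of_supp N ha, eq_sum_single (res N.subtype a)]
    simp only [map_sum, map_smul, Finset.mul_sum, Finset.sum_mul, mul_smul_comm, smul_mul_assoc]
    refine Finset.sum_congr rfl fun n _ => congrArg _ ?_
    let b : N := ⟨π γ * n * (π γ)⁻¹, (mem_normalizer_iff.1 (hπ γ) _).1 n.2⟩
    have h1 := congrArg (fun A => emb N.subtype (redA M (psi ρ A))) (h γ n b rfl)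
    simp only [psi_mul_rep, psi_rep_mul, redA_mul (hS _) (of_mem_SG _),
      redA_mul (of_mem_SG _) (hS _), redA_of, map_mul] at h1
    rw [emb_single, cj_single]
    rw [emb_of, emb_of] at h1
    exact h1
  · simp only [hγ, map_smul]
    rw [← mul_one (ρ n), psi_rep_mul, psi_one ρ hθ, redA_smul hc (mul_mem (of_mem_SG _) hf),
      redA_mul (of_mem_SG _) hf, redA_of, map_smul, map_mul, emb_of]
    rfl

end Cfsg.Lib.DGN
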