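import Cfsg.Agent.Lib.DGN.Inv
import Cfsg.Agent.Lib.Block.Constr

/-! Blocks of `p`-solvable groups with abelian defect groups are perfectly isometric to their
Brauer correspondents. -/

namespace Cfsg.Lib.DGN

open _root_.Cfsg.Lib.Block MonoidAlgebra Module Cfsg.Lib.Transfer Subgroup Cfsg.Lib.Char

universe u

variable {G X : Type*} [Group G] [Group X] [Finite G] [Finite X] {p : ℕ} [hp : Fact p.Prime]
  {M : Ideal AlgInt} [Modular p M] {N T P : Subgroup G}

/-- The Fong–Reynolds correspondence is perfect. -/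
theorem Perf.fr [N.Normal] (hN : ¬ p ∣ Nat.card N) {f : (Res M)[G]} (hf : IsBlkIdem N M f)
    (hT : T = stab f) {B : Set (IrrCharacter G)} (hB : IsPBlock M B) {B' : Set (IrrCharacter T)}
    (hB' : IsPBlock M B') (h : eblk M B * f = ebl T M B') {c : Set (IrrCharacter X)}
    (hX : Perf p M B' c) : Perf p M B c := by
  haveI := Fintype.ofFinite G
  haveI := Fintype.ofFinite N
  obtain ⟨_, ⟨θ, rfl⟩, rfl⟩ := id hf
  rw [blockOf_eq_singleton_of_not_dvd hN] at *
  have hb := isPBlock_singleton_of_not_dvd (M := M) hN θ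
  have hNT : N ≤ T := hT ▸ hf.mem_cen.1
  have hcov : Covers (inclusion hNT) B' {θ} :=
    (hB'.covers_inclusion_iff hNT (le_top.trans le_normalizer_top) hb).2 (by
      rw [← h, mul_assoc, hf.idem, h]; exact hB'.ebl_ne_zero)
  have hmem := hcov.mem_iff_indFun hb hT ((hcov.isInducedBlock_iff hb hB' hB hT).2 h)
  have hov := fun ψ : B' => hcov.over_le hb hB' ψ.2
  let v : B' → B := fun ψ => ⟨⟨_, ((hov ψ).isIrrCharacter_indFun hb hT.ge hNT).1⟩,
    (hmem _).2 ⟨ψ, ψ.2, rfl⟩⟩
  refine hX.ind (Equiv.ofBijective v ⟨fun ψ ψ' e => Subtype.ext (Subtype.ext ?_), fun χ => ?_⟩)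
    fun _ => rfl
  · exact Clifford.eq_of_indFun_eq_of_over N hNT θ.2 (hT ▸ hb.inertia_le_stab rfl) ψ.1.2 ψ'.1.2
      ((over_le_iff hNT _ _).1 (hov ψ)) ((over_le_iff hNT _ _).1 (hov ψ'))
      (congrArg (fun χ : B => (χ : G → ℂ)) e)
  · obtain ⟨ψ, h1, h2⟩ := (hmem χ).1 χ.2
    exact ⟨⟨ψ, h1⟩, Subtype.ext (Subtype.ext h2.symm)⟩

theorem perf_of_fix (hG : IsPConstrained p G) {B : Set (IrrCharacter G)} (hB : IsPBlock M B)
    (h : IsBlkIdem (pPrimeCore p G) M (eblk M B)) (hP : IsDefIn p ⊤ (eblk M B) P)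
    (hab : ∀ x ∈ P, ∀ y ∈ P, x * y = y * x) {c : Set (IrrCharacter (normalizer (P : Set G)))}
    (hc : IsPBlock M c) (h' : ebl _ M c = br P (eblk M B)) : Perf p M B c := by
  have hN : ¬ p ∣ Nat.card (pPrimeCore p G) :=
    (Nat.Prime.coprime_iff_not_dvd hp.out).1 (Core.pPrimeCore_coprime p G).symm
  refine perf_inv hN hB h hP.pgrp hab ?_ hc h'
  obtain ⟨S, hS⟩ := hP.pgrp.exists_le_sylow
  obtain rfl := hP.eq_of_le le_top S.isPGroup' hS (h.br_ne_zero_of_not_dvd hN hB.isBlkIdem_top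
    le_top le_normalizer_top S.isPGroup' le_top)
  have h1 : (S : Subgroup G) ≤ pPrimePCore p G :=
    fun x hx => Core.centralizer_sylow_le_pPrimePCore hG S fun y hy => hab y hy x hx
  have h2 := S.normalizer_sup_eq_top' h1
  rw [← Core.pPrimeCore_sup_eq_pPrimePCore h1 (sylow_not_dvd_relIndex S h1)] at h2
  exact top_le_iff.1 (h2.ge.trans (sup_le le_sup_right
    (sup_le le_sup_left (le_normalizer.trans le_sup_right))))

theorem perf_of_isPSolvable (n : ℕ) : ∀ (G : Type u) [Group G] [Finite G], Nat.card G = n →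
    IsPSolvable p G → ∀ (B : Set (IrrCharacter G)) (P : Subgroup G)
      (c : Set (IrrCharacter (normalizer (P : Set G)))), IsPBlock M B → IsPBlock M c →
      IsDefIn p ⊤ (eblk M B) P → (∀ x ∈ P, ∀ y ∈ P, x * y = y * x) →
      ebl _ M c = br P (eblk M B) → Perf p M B c := by
  induction n using Nat.strong_induction_on with
  | _ n ih =>
  intro G _ _ hn hG B P c hB hc hP hab h
  have hG' := Core.isPConstrained_of_isPSolvable hG
  set N := pPrimeCore p G with hNdef
  have hN : ¬ p ∣ Nat.card N :=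
    (Nat.Prime.coprime_iff_not_dvd hp.out).1 (Core.pPrimeCore_coprime p G).symm
  have hNn : ∀ K : Subgroup G, K ≤ normalizer (N : Set G) := fun _ => le_top.trans le_normalizer_top
  have he := hB.isBlkIdem_top
  have heP : ∀ K : Subgroup G, eblk M B ∈ fix (Res M) K := eblk_mem_fix' B
  obtain ⟨f, hf, -, hfP, h0⟩ := exists_fix_of_br_mul_ne_zero (K := N) (a := 1) hP.pgrp (hNn P)
    (one_mem _) (one_mul _) (one_mem _) (c := br P (eblk M B)) (by
      rw [br_one, one_mul]; exact hP.ne_zero)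
  have h1 : br P (eblk M B * f) = br P (eblk M B) * br P f := br_mul hP.pgrp (heP P) hfP
  have h2 : br P (eblk M B * f) ≠ 0 := by
    rwa [← (commute_of_supp_of_fix hf.mem_cen.2 (heP N)).eq, br_mul hP.pgrp hfP (heP P)]
  have h3 : eblk M B * f ≠ 0 := fun e => h2 (by rw [e, map_zero])
  by_cases hT : stab f = ⊤
  · have := he.eq_of_mul_ne_zero (hf.top_of_constrained hG' (le_stab.1 hT.ge)) h3
    exact perf_of_fix hG' hB (this ▸ hf) hP hab hc h
  set T := stab f with hTdef
  have hPT : P ≤ T := hfP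
  have h4 := he.mul_stab hf le_top (hNn ⊤) h3
  rw [top_inf_eq] at h4
  have h5 : IsDefIn p T (eblk M B * f) P :=
    hP.of_mul_eq (heP T) h4.mem_cen.1 le_top hPT (by rw [← mul_assoc, he.idem]) h2
  obtain ⟨B', hB', h6⟩ := h4
  have h7 : IsDefIn p ⊤ (eblk M B') (P.subgroupOf T) := (isDefIn_emb_iff T.subtype_injective).1 (by
    rw [top_map_subtype, map_subgroupOf_eq_of_le hPT]; exact (h6 ▸ h5 : IsDefIn p T (ebl T M B') P))
  have h8 := hB'.isBlkIdem_top.br_of_isDefIn h7
  rw [top_inf_eq] at h8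
  obtain ⟨c', hc', h9⟩ := h8
  have h10 := ih _ (hn ▸ (card_le_card_group T).lt_of_ne fun e => hT (eq_top_of_card_eq T e)) T rfl (Core.isPSolvable_subgroup hG T) B' _ c' hB' hc'
    h7 (fun x hx y hy => Subtype.ext (hab _ hx _ hy)) h9.symm
  have h11 := (h10.fr hN hf rfl hB hB' h6).symm
  let H := normalizer (P : Set G)
  have hCH : N ⊓ centralizer (P : Set G) ≤ H := inf_le_right.trans (centralizer_le_normalizer _)
  have hf' := hf.br_of_not_dvd hN hP.pgrp (hNn P) hfP
  have hs : emb H.subtype (res H.subtype (br P f)) = br P f :=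
    emb_res_subtype_of_supp H (supp_mono hCH hf'.mem_cen.2)
  let e : normalizer ((P.subgroupOf T : Subgroup T) : Set T) ≃* T.subgroupOf H :=
    ((equivMapOfInjective _ _ T.subtype_injective).trans (MulEquiv.subgroupCongr (by
      rw [normalizer_subgroupOf_map hPT, subgroupOf_map_subtype]))).trans
      (equivMapOfInjective _ _ H.subtype_injective).symm
  have he' : ∀ x, ((e x : H) : G) = x := fun x => by
    have := coe_equivMapOfInjective_apply (T.subgroupOf H) _ H.subtype_injective (e x)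
    simp only [e, MulEquiv.trans_apply, MulEquiv.apply_symm_apply] at this
    exact this.symm
  haveI : ((N ⊓ centralizer (P : Set G)).subgroupOf H).Normal :=
    (normal_subgroupOf_iff_le_normalizer hCH).2 fun g hg => by
      have := normalizer_inf_centralizer (π := H.subtype) (N := N) (fun _ => hNn ⊤ trivial)
        (P.subgroupOf _) ⟨g, hg⟩
      rwa [map_subgroupOf_eq_of_le le_normalizer] at this
  refine ((h11.equiv e).fr (N := (N ⊓ centralizer (P : Set G)).subgroupOf H)
    (f := res H.subtype (br P f)) (fun h => hN (h.trans (Nat.card_congr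
      (subgroupOfEquivOfLe hCH).toEquiv ▸ card_dvd_of_le inf_le_left)))
    (IsBlkIdem.res (by rwa [map_subgroupOf_eq_of_le hCH]) H.subtype_injective) ?_ hc
    (hc'.preimage_irrEquiv e) (emb_injective H.subtype_injective ?_)).symm
  · ext g
    have hg : (g : G) ⋆ P = P := conj_eq_self_iff.2 g.2
    rw [mem_subgroupOf, mem_stab, mem_stab, ← (emb_injective H.subtype_injective).eq_iff, emb_cj, hs,
      cj_br', coe_subtype, hg]
    refine ⟨fun h => by rw [h], fun h => ?_⟩
    refine (hf.cj (conj_eq_self_iff.2 (hNn ⊤ trivial))).eq_of_mul_ne_zero hf fun h0 =>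
      hf'.ne_zero ?_
    rw [← hf'.idem, ← map_zero (br P), ← h0, br_mul hP.pgrp (hg ▸ cj_mem_fix_conj hfP g) hfP, h]
  · rw [map_mul, hs, ← ebl, h, ← h1, h6, br_ebl hPT, h9, ebl, ebl, ← emb_equiv_eblk, emb_emb, emb_emb,
      emb_emb]
    congr 2
    exact MonoidHom.ext fun x => (he' x).symm

end Cfsg.Lib.DGN
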