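import Cfsg.Agent.Lib.DGN.Core
import Cfsg.Agent.Lib.Block.Solv
import Cfsg.Agent.Lib.Block.Roots
import Cfsg.Agent.Lib.Cyc.Simple

/-! Corners of block algebras of `p'`-groups are matrix algebras. -/

namespace Cfsg.Lib.DGN

open Cfsg.Lib.Block MonoidAlgebra Module

theorem exists_rank_factor {k m : Type*} [Field k] [Fintype m] [DecidableEq m] {ε : Matrix m m k}
    (h : ε * ε = ε) : ∃ (n : ℕ) (X : Matrix m (Fin n) k) (Y : Matrix (Fin n) m k),
      X * Y = ε ∧ Y * X = 1 := by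
  let W := LinearMap.range (Matrix.toLin' ε)
  let b := Module.finBasis k W
  refine ⟨_, LinearMap.toMatrix b (Pi.basisFun k m) W.subtype,
    LinearMap.toMatrix (Pi.basisFun k m) b (Matrix.toLin' ε).rangeRestrict, ?_, ?_⟩
  · rw [← LinearMap.toMatrix_comp, show W.subtype ∘ₗ (Matrix.toLin' ε).rangeRestrict =
      Matrix.toLin' ε from rfl, LinearMap.toMatrix_eq_toMatrix', LinearMap.toMatrix'_toLin']
  · rw [← LinearMap.toMatrix_comp, ← LinearMap.toMatrix_id b]
    congr 1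
    ext ⟨_, w, rfl⟩ : 1
    refine Subtype.ext ?_
    change Matrix.toLin' ε (Matrix.toLin' ε w) = Matrix.toLin' ε w
    rw [← Matrix.toLin'_mul_apply, h]

variable {G : Type*} [Group G] [Finite G] {p : ℕ} [hp : Fact p.Prime] {M : Ideal AlgInt}
  [Modular p M] {K : Subgroup G} {f e : (Res M)[G]}

/-- `Ψ` identifies a matrix algebra with the corner `e k[K] e`. -/
structure IsCorner (K : Subgroup G) (e : (Res M)[G]) {n : ℕ}
    (Ψ : Matrix (Fin n) (Fin n) (Res M) →ₗ[Res M] (Res M)[G]) : Prop where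
  inj : Function.Injective Ψ
  mul : ∀ S T, Ψ (S * T) = Ψ S * Ψ T
  one : Ψ 1 = e
  supp : ∀ T, Ψ T ∈ supp (Res M) K
  surj : ∀ a ∈ Block.supp (Res M) K, ∃ T, Ψ T = e * a * e

theorem exists_isCorner_self (hf : IsBlkIdem K M f) (hK : ¬ p ∣ Nat.card K) :
    ∃ (n : ℕ) (Ψ : Matrix (Fin n) (Fin n) (Res M) →ₗ[Res M] (Res M)[G]), IsCorner K f Ψ := by
  classical
  haveI : NeZero (Nat.card K : Res M) := ⟨fun h => hK ((CharP.cast_eq_zero_iff _ p _).1 h)⟩
  obtain ⟨r, d, hd, ⟨E⟩⟩ := IsSemisimpleRing.exists_algEquiv_pi_matrix_of_isAlgClosed (Res M)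
    (Res M)[K]
  let δ : Fin r → (Res M)[K] := fun i => E.symm (Pi.single i 1)
  have hδ : ∀ i, δ i ∈ fix (Res M) (⊤ : Subgroup K) := fun i =>
    mem_fix_top_iff_mem_center.2 (Subalgebra.mem_center_iff.2 fun b => E.injective (by
      simp only [δ, map_mul, AlgEquiv.apply_symm_apply]
      rw [← Pi.single_mul_right, ← Pi.single_mul_left, mul_one, one_mul]))
  have hδ2 : ∀ i, δ i * δ i = δ i := fun i => by
    simp only [δ]; rw [← map_mul, ← Pi.single_mul, mul_one]
  obtain ⟨i, hi⟩ : ∃ i, emb K.subtype (δ i) * f ≠ 0 := by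
    by_contra! h
    refine hf.ne_zero ?_
    rw [← one_mul f, ← map_one (emb K.subtype), ← map_one E.symm,
      ← Finset.univ_sum_single (1 : ∀ i, Matrix (Fin (d i)) (Fin (d i)) (Res M)), map_sum, map_sum,
      Finset.sum_mul]
    exact Finset.sum_eq_zero fun i _ => h i
  have h1 := hf.mul_eq_of_ne_zero (emb_subtype_mem_cen K (hδ i)) (by rw [← map_mul, hδ2]) hi
  obtain ⟨f₀, rfl⟩ : ∃ f₀, emb K.subtype f₀ = f := ⟨_, emb_res_of_mem_cen hf.mem_cen⟩
  have hinj := emb_injective (R := Res M) K.subtype_injective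
  have h2 : E f₀ = Pi.single i (E f₀ i) := by
    rw [← map_mul] at h1
    conv_lhs => rw [← hinj h1, map_mul]
    simp only [δ, AlgEquiv.apply_symm_apply]
    rw [← Pi.single_mul_left, one_mul]
  have h3 : f₀ ∈ fix (Res M) (⊤ : Subgroup K) := by
    have := res_subtype_mem_fix_top K hf.mem_cen.1
    rwa [res_emb_subtype] at this
  obtain ⟨c, hc⟩ : E f₀ i ∈ Set.range (Matrix.scalar (Fin (d i))) :=
    Matrix.mem_range_scalar_iff_commute_single'.2 fun a b => by
      have := congrFun (congrArg E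
        (commute_of_fix_top h3 (E.symm (Pi.single i (Matrix.single a b 1)))).eq) i
      simpa [Commute, SemiconjBy] using this
  have h4 : E f₀ i = 1 := by
    have h5 : E f₀ i * E f₀ i = E f₀ i := by
      rw [← Pi.mul_apply, ← map_mul, hinj ((map_mul _ _ _).trans hf.idem)]
    have h6 : c ≠ 0 := fun h0 => hf.ne_zero (by
      rw [← E.symm_apply_apply f₀, h2, ← hc, h0]; simp)
    rw [← hc, ← map_mul] at h5
    haveI : Nonempty (Fin (d i)) := ⟨0⟩
    rw [← hc, mul_left_cancel₀ h6 ((Matrix.scalar_inj.1 h5).trans (mul_one c).symm), map_one]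
  rw [h4] at h2
  refine ⟨d i, (emb K.subtype).toLinearMap ∘ₗ E.symm.toLinearMap ∘ₗ
    LinearMap.single (Res M) (fun i => Matrix (Fin (d i)) (Fin (d i)) (Res M)) i,
    fun S T h => Pi.single_injective (M := fun i => Matrix (Fin (d i)) (Fin (d i)) (Res M)) i
      (E.symm.injective (hinj h)), fun S T => ?_, ?_,
    fun T => emb_subtype_mem_supp K _, fun a ha => ⟨E (res K.subtype a) i, ?_⟩⟩
  · simp [Pi.single_mul]
  · simp [← h2]
  · conv_rhs => rw [← emb_res_subtype_of_supp K ha, ← map_mul, ← map_mul]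
    refine congrArg (emb K.subtype) (E.injective ?_)
    simp only [map_mul, h2]
    rw [← Pi.single_mul_left, ← Pi.single_mul, one_mul, mul_one]
    simp

theorem exists_isCorner (hf : IsBlkIdem K M f) (hK : ¬ p ∣ Nat.card K) (he : e ∈ supp (Res M) K)
    (ee : e * e = e) (fe : f * e = e) :
    ∃ (n : ℕ) (Ψ : Matrix (Fin n) (Fin n) (Res M) →ₗ[Res M] (Res M)[G]), IsCorner K e Ψ := by
  obtain ⟨m, Φ, hΦ⟩ := exists_isCorner_self hf hK
  have ef : e * f = e := by rw [(commute_of_supp_of_fix he hf.mem_cen.1).eq, fe]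
  obtain ⟨ε, hε⟩ := hΦ.surj e he
  rw [fe, ef] at hε
  obtain ⟨n, X, Y, h1, h2⟩ := exists_rank_factor (ε := ε) (hΦ.inj (by rw [hΦ.mul, hε, ee]))
  let κ : Matrix (Fin n) (Fin n) (Res M) →ₗ[Res M] Matrix (Fin m) (Fin m) (Res M) :=
    { toFun := fun T => X * T * Y
      map_add' := fun S T => by rw [Matrix.mul_add, Matrix.add_mul]
      map_smul' := fun c T => by rw [Matrix.mul_smul, Matrix.smul_mul]; rfl }
  have hκ : ∀ T, κ T = X * T * Y := fun _ => rfl
  refine ⟨n, Φ ∘ₗ κ, hΦ.inj.comp fun S T h => ?_, fun S T => ?_, ?_, fun T => hΦ.supp _,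
    fun a ha => ?_⟩
  · have := congrArg (fun Z => Y * Z * X) h
    simpa only [hκ, Matrix.mul_assoc, h2, Matrix.mul_one, ← Matrix.mul_assoc Y X,
      Matrix.one_mul] using this
  · simp only [LinearMap.comp_apply, ← hΦ.mul, hκ, Matrix.mul_assoc, ← Matrix.mul_assoc Y X, h2,
      Matrix.one_mul]
  · rw [LinearMap.comp_apply, hκ, Matrix.mul_one, h1, hε]
  · obtain ⟨T, hT⟩ := hΦ.surj a ha
    refine ⟨Y * T * X, ?_⟩
    rw [LinearMap.comp_apply, hκ, ← Matrix.mul_assoc, ← Matrix.mul_assoc, h1, Matrix.mul_assoc,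
      Matrix.mul_assoc, h1, hΦ.mul, hΦ.mul, hε, hT]
    simp only [← mul_assoc, ef]
    rw [mul_assoc _ f, fe]

/-- A primitive idempotent in a block of a `p'`-group. -/
theorem exists_primitive (hf : IsBlkIdem K M f) (hK : ¬ p ∣ Nat.card K) :
    ∃ ε ∈ supp (Res M) K, ε ≠ 0 ∧ ε * ε = ε ∧ f * ε = ε ∧
      (∀ a ∈ supp (Res M) K, ∃ c : Res M, ε * a * ε = c • ε) := by
  obtain ⟨m, Φ, hΦ⟩ := exists_isCorner_self hf hK
  obtain ⟨o⟩ : Nonempty (Fin m) := by
    by_contra h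
    rw [not_nonempty_iff] at h
    exact hf.ne_zero (by rw [← hΦ.one, Subsingleton.elim (1 : Matrix _ _ _) 0, map_zero])
  have h1 : f * Φ (Matrix.single o o 1) = Φ (Matrix.single o o 1) := by
    rw [← hΦ.one, ← hΦ.mul, one_mul]
  have h2 : Φ (Matrix.single o o 1) * f = Φ (Matrix.single o o 1) := by
    rw [← hΦ.one, ← hΦ.mul, mul_one]
  refine ⟨Φ (Matrix.single o o 1), hΦ.supp _, fun h => ?_, by rw [← hΦ.mul]; simp, h1,
    fun a ha => ?_⟩
  · have := congrFun (congrFun (hΦ.inj (h.trans (map_zero Φ).symm)) o) o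
    simp at this
  · obtain ⟨T, hT⟩ := hΦ.surj a ha
    refine ⟨T o o, ?_⟩
    have h3 : Φ (Matrix.single o o 1) * a * Φ (Matrix.single o o 1) =
        Φ (Matrix.single o o 1) * (f * a * f) * Φ (Matrix.single o o 1) := by
      rw [← mul_assoc, ← mul_assoc, h2, mul_assoc _ f, h1]
    rw [h3, ← hT, ← hΦ.mul, ← hΦ.mul, ← map_smul, Matrix.single_mul_mul_single]
    simp

/-- Elements of a block of a `p'`-group commuting with the group are scalars. -/
theorem exists_eq_smul (hf : IsBlkIdem K M f) (hK : ¬ p ∣ Nat.card K) {a : (Res M)[G]}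
    (ha : a ∈ cen (Res M) K) (fa : f * a = a) : ∃ c : Res M, a = c • f := by
  obtain ⟨m, Φ, hΦ⟩ := exists_isCorner_self hf hK
  obtain ⟨T, hT⟩ := hΦ.surj a ha.2
  rw [fa, (commute_of_mem_cen ha hf.mem_cen).eq, fa] at hT
  obtain ⟨c, hc⟩ : T ∈ Set.range (Matrix.scalar (Fin m)) :=
    Matrix.mem_range_scalar_iff_commute_single'.2 fun i j => hΦ.inj (by
      rw [hΦ.mul, hΦ.mul, hT]
      exact (commute_of_supp_of_fix (hΦ.supp _) ha.1).eq)
  refine ⟨c, ?_⟩
  rw [← hT, ← hc, ← hΦ.one, ← map_smul, Matrix.scalar_apply, Matrix.smul_one_eq_diagonal]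

end Cfsg.Lib.DGN
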