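import Mathlib

/-! Rank bookkeeping for `p`-nilpotent operators, and a perturbation lemma for operators that are
free up to one trivial block. -/

namespace Cfsg.Lib.DGN

open Module LinearMap Submodule

variable {K X : Type*} [Field K] [AddCommGroup X] [Module K X]

/-- Rank of a power. -/
noncomputable def rk (α : Module.End K X) (j : ℕ) : ℕ := finrank K (range (α ^ j))

/-- Dimension of the kernel inside the image of a power. -/
noncomputable def dk (α : Module.End K X) (j : ℕ) : ℕ := finrank K ↥(ker α ⊓ range (α ^ j))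

theorem range_pow_le (α : Module.End K X) (i j : ℕ) : range (α ^ (j + i)) ≤ range (α ^ j) := by
  rintro _ ⟨x, rfl⟩
  exact ⟨(α ^ i) x, by rw [pow_add]; rfl⟩

theorem range_le_ker_pow {α : Module.End K X} {q : ℕ} (h : α ^ (q + 1) = 0) :
    range α ≤ ker (α ^ q) := by
  rintro _ ⟨x, rfl⟩
  rw [mem_ker, ← Module.End.mul_apply, ← pow_succ, h]; rfl

theorem range_pow_le_ker {α : Module.End K X} {q : ℕ} (h : α ^ (q + 1) = 0) :
    range (α ^ q) ≤ ker α := by
  rintro _ ⟨x, rfl⟩
  rw [mem_ker, ← Module.End.mul_apply, ← pow_succ', h]; rfl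

section FD
variable [FiniteDimensional K X] {α : Module.End K X} {q : ℕ} {e : X}

theorem rk_zero (α : Module.End K X) : rk α 0 = finrank K X := by
  rw [rk, pow_zero, Module.End.one_eq_id, range_id, finrank_top]

theorem dk_zero (α : Module.End K X) : dk α 0 = finrank K (ker α) := by
  rw [dk, pow_zero, Module.End.one_eq_id, range_id, inf_top_eq]

theorem rk_one (α : Module.End K X) : rk α 1 = finrank K (range α) := by rw [rk, pow_one]

theorem rk_succ (α : Module.End K X) (j : ℕ) : rk α j = rk α (j + 1) + dk α j := by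
  have h := LinearMap.finrank_range_add_finrank_ker (α.domRestrict (range (α ^ j)))
  have h1 : range (α.domRestrict (range (α ^ j))) = range (α ^ (j + 1)) := by
    rw [range_domRestrict, pow_succ', Module.End.mul_eq_comp, range_comp]
  have h2 : finrank K (ker (α.domRestrict (range (α ^ j)))) = dk α j := by
    rw [ker_domRestrict, ← Submodule.finrank_map_subtype_eq, map_comap_subtype, inf_comm, dk]
  rw [h1, h2] at h
  exact h.symm

theorem dk_anti (α : Module.End K X) (i j : ℕ) : dk α (j + i) ≤ dk α j :=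
  Submodule.finrank_mono (inf_le_inf_left _ (range_pow_le α i j))

theorem rk_ge (α : Module.End K X) (i j : ℕ) : rk α (j + i) + i * dk α (j + i) ≤ rk α j := by
  induction i with
  | zero => simp
  | succ i ih =>
    have h1 := rk_succ α (j + i)
    have h2 := dk_anti α 1 (j + i)
    have h3 : i * dk α (j + i + 1) ≤ i * dk α (j + i) := Nat.mul_le_mul_left _ h2
    rw [← add_assoc, add_mul]
    omega

theorem rk_le (α : Module.End K X) (i j : ℕ) : rk α j ≤ rk α (j + i) + i * dk α j := by
  induction i with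
  | zero => simp
  | succ i ih =>
    have h1 := rk_succ α (j + i)
    have h2 := dk_anti α i j
    rw [← add_assoc, add_mul]
    omega

theorem rk_eq_zero (h : α ^ (q + 1) = 0) : rk α (q + 1) = 0 := by
  rw [rk, h, range_zero, finrank_bot]

theorem dk_eq_rk (h : α ^ (q + 1) = 0) : dk α q = rk α q := by
  rw [dk, rk, inf_eq_right.2 (range_pow_le_ker h)]

theorem mul_rk_le (h : α ^ (q + 1) = 0) (hq : q ≠ 0) : q * rk α q ≤ rk α 1 := by
  obtain ⟨i, rfl⟩ := Nat.exists_eq_add_one_of_ne_zero hq
  have h1 := rk_ge α i 1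
  rw [add_comm 1 i, dk_eq_rk h] at h1
  rw [add_mul]; omega

theorem finrank_ker_pow (α : Module.End K X) (j : ℕ) :
    rk α j + finrank K (ker (α ^ j)) = finrank K X :=
  LinearMap.finrank_range_add_finrank_ker _

theorem finrank_le_of_ker_le (h : α ^ (q + 1) = 0) (hk : ker α ≤ range (α ^ q)) :
    finrank K X ≤ (q + 1) * rk α q := by
  have h1 := rk_le α (q + 1) 0
  rw [zero_add, rk_eq_zero h, rk_zero, dk_zero, zero_add] at h1
  exact h1.trans (Nat.mul_le_mul_left _ (Submodule.finrank_mono hk))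

theorem mul_rk_le_finrank (h : α ^ (q + 1) = 0) : (q + 1) * rk α q ≤ finrank K X := by
  have h1 := rk_ge α q 0
  rw [zero_add, dk_eq_rk h, rk_zero] at h1
  rw [add_mul]; omega

theorem ker_le_range_of_finrank_le (h : α ^ (q + 1) = 0) (hq : q ≠ 0)
    (hN : finrank K X ≤ (q + 1) * rk α q) : ker (α ^ q) ≤ range α := by
  have h1 := mul_rk_le h hq
  have h2 := finrank_ker_pow α q
  rw [rk_one] at h1
  refine (Submodule.eq_of_le_of_finrank_le (range_le_ker_pow h) ?_).ge
  rw [add_mul] at hN; omega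

theorem dk_one_lt (he : α e = 0) (he' : e ∉ range α) : dk α 1 + 1 ≤ dk α 0 := by
  rw [dk_zero, dk, pow_one]
  refine Submodule.finrank_lt_finrank_of_lt (lt_of_le_of_ne inf_le_left fun h => he' ?_)
  have : e ∈ ker α ⊓ range α := by rw [h]; exact he
  exact this.2

theorem finrank_le_of_good (h : α ^ (q + 1) = 0) (he : α e = 0) (he' : e ∉ range α)
    (hg : ker (α ^ q) ≤ range α ⊔ span K {e}) : finrank K X ≤ 1 + (q + 1) * rk α q := by
  have h1 := Submodule.finrank_mono hg
  rw [finrank_sup_span_singleton he', ← rk_one] at h1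
  have h2 := finrank_ker_pow α q
  have h3 := rk_succ α 0
  have h4 := dk_one_lt he he'
  have h5 := rk_le α q 1
  rw [add_comm 1 q, rk_eq_zero h] at h5
  rw [rk_zero, zero_add] at h3
  have h6 : q * dk α 1 ≤ q * rk α q := Nat.mul_le_mul_left _ (by omega)
  rw [add_mul]; omega

theorem le_finrank_of_not_mem (h : α ^ (q + 1) = 0) (hq : q ≠ 0) (he : α e = 0)
    (he' : e ∉ range α) : 1 + (q + 1) * rk α q ≤ finrank K X := by
  have h1 := mul_rk_le h hq
  have h3 := rk_succ α 0
  have h4 := dk_one_lt he he'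
  obtain ⟨i, rfl⟩ := Nat.exists_eq_add_one_of_ne_zero hq
  have h5 := dk_anti α i 1
  rw [add_comm 1 i, dk_eq_rk h] at h5
  rw [rk_zero, zero_add] at h3
  rw [add_mul (i + 1)]; omega

theorem good_of_finrank_le (h : α ^ (q + 1) = 0) (hq : q ≠ 0) (he : α e = 0) (he' : e ∉ range α)
    (hN : finrank K X ≤ 1 + (q + 1) * rk α q) : ker (α ^ q) ≤ range α ⊔ span K {e} := by
  have h1 := mul_rk_le h hq
  have h2 := finrank_ker_pow α q
  refine (Submodule.eq_of_le_of_finrank_le (sup_le (range_le_ker_pow h) ?_) ?_).ge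
  · rw [span_singleton_le_iff_mem, mem_ker]
    obtain ⟨i, rfl⟩ := Nat.exists_eq_add_one_of_ne_zero hq
    rw [pow_succ, Module.End.mul_apply, he, map_zero]
  · rw [finrank_sup_span_singleton he', ← rk_one]
    rw [add_mul] at hN; omega

theorem ker_le_of_finrank_le (h : α ^ (q + 1) = 0) (hq : q ≠ 0) (he : α e = 0)
    (he' : e ∉ range α) (hN : finrank K X ≤ 1 + (q + 1) * rk α q) :
    ker α ≤ range (α ^ q) ⊔ span K {e} := by
  have h1 := mul_rk_le h hq
  have h3 := rk_succ α 0
  rw [rk_zero, zero_add, dk_zero] at h3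
  have he'' : e ∉ range (α ^ q) := fun h0 => he' (by
    obtain ⟨i, rfl⟩ := Nat.exists_eq_add_one_of_ne_zero hq
    have := range_pow_le α i 1 (by rwa [add_comm] at h0)
    rwa [pow_one] at this)
  refine (Submodule.eq_of_le_of_finrank_le (sup_le (range_pow_le_ker h) ?_) ?_).ge
  · rwa [span_singleton_le_iff_mem]
  · rw [finrank_sup_span_singleton he'']
    change _ ≤ rk α q + 1
    rw [add_mul] at hN; omega

end FD

theorem add_pow_p {R : Type*} [Ring R] [Algebra K R] (p : ℕ) [Fact p.Prime] [CharP K p] {x y : R}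
    (h : Commute x y) : (x + y) ^ p = x ^ p + y ^ p := by
  rcases subsingleton_or_nontrivial R with _ | _
  · exact Subsingleton.elim _ _
  · haveI : CharP R p := charP_of_injective_algebraMap (algebraMap K R).injective p
    exact add_pow_char_of_commute p h

theorem sub_pow_p {R : Type*} [Ring R] [Algebra K R] (p : ℕ) [Fact p.Prime] [CharP K p] {x y : R}
    (h : Commute x y) : (x - y) ^ p = x ^ p - y ^ p := by
  rcases subsingleton_or_nontrivial R with _ | _
  · exact Subsingleton.elim _ _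
  · haveI : CharP R p := charP_of_injective_algebraMap (algebraMap K R).injective p
    exact sub_pow_char_of_commute p h

section Index
variable {A B C : Type*} [AddCommGroup A] [Module K A] [AddCommGroup B] [Module K B]
  [AddCommGroup C] [Module K C]

theorem finite_of_ker_le [Module.Finite K A] [Module.Finite K C] (φ : A →ₗ[K] B) (ψ : B →ₗ[K] C)
    (h : ker ψ ≤ range φ) : Module.Finite K B ∧ finrank K B ≤ finrank K A + finrank K C := by
  haveI : Module.Finite K (ker ψ) := Submodule.finiteDimensional_of_le h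
  haveI : Module.Finite K (B ⧸ ker ψ) := Module.Finite.equiv ψ.quotKerEquivRange.symm
  haveI : Module.Finite K B := Module.Finite.of_submodule_quotient (ker ψ)
  refine ⟨this, ?_⟩
  have h1 := ψ.finrank_range_add_finrank_ker
  have h2 := Submodule.finrank_le (range ψ)
  have h3 := (Submodule.finrank_mono h).trans φ.finrank_range_le
  omega

theorem add_le_finrank [Module.Finite K B] (φ : A →ₗ[K] B) (ψ : B →ₗ[K] C)
    (hφ : Function.Injective φ) (hψ : Function.Surjective ψ) (h : range φ ≤ ker ψ) :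
    finrank K A + finrank K C ≤ finrank K B := by
  have h1 := ψ.finrank_range_add_finrank_ker
  rw [range_eq_top.2 hψ, finrank_top] at h1
  have h3 := Submodule.finrank_mono h
  rw [LinearMap.finrank_range_of_inj hφ] at h3
  omega

variable {U : Submodule K X} {s : Module.End K X}

theorem idx_le_comap (hU : U ≤ U.comap s) (k : ℕ) :
    U ⊔ range (s ^ k) ≤ (U ⊔ range (s ^ (k + 1))).comap s := by
  refine sup_le (fun x hx => mem_sup_left (hU hx)) ?_
  rintro _ ⟨x, rfl⟩
  exact mem_sup_right ⟨x, by rw [pow_succ']; rfl⟩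

theorem idx_le_comap_id (U : Submodule K X) (s : Module.End K X) (k : ℕ) :
    U ⊔ range (s ^ (k + 1)) ≤ (U ⊔ range s).comap LinearMap.id := by
  refine sup_le_sup_left ?_ U
  rintro _ ⟨x, rfl⟩
  exact ⟨(s ^ k) x, by rw [pow_succ']; rfl⟩

theorem idx_le (hU : U ≤ U.comap s) [Module.Finite K (X ⧸ (U ⊔ range s))] (k : ℕ) :
    Module.Finite K (X ⧸ (U ⊔ range (s ^ k))) ∧
      finrank K (X ⧸ (U ⊔ range (s ^ k))) ≤ k * finrank K (X ⧸ (U ⊔ range s)) := by
  induction k with
  | zero =>
    rw [pow_zero, Module.End.one_eq_id, range_id, sup_top_eq]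
    exact ⟨inferInstance, by simp [finrank_zero_of_subsingleton]⟩
  | succ k ih =>
    haveI := ih.1
    obtain ⟨h1, h2⟩ := finite_of_ker_le (mapQ _ _ s (idx_le_comap hU k))
      (mapQ _ _ LinearMap.id (idx_le_comap_id U s k)) (by
        intro x hx
        obtain ⟨x, rfl⟩ := mkQ_surjective _ x
        rw [mem_ker, mkQ_apply, mapQ_apply, Quotient.mk_eq_zero, id_apply, mem_sup] at hx
        obtain ⟨u, hu, _, ⟨y, rfl⟩, rfl⟩ := hx
        refine ⟨Submodule.Quotient.mk y, ?_⟩
        rw [mapQ_apply, mkQ_apply, Submodule.Quotient.eq]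
        exact mem_sup_left (by simpa using hu))
    refine ⟨h1, h2.trans ?_⟩
    rw [add_mul, one_mul]
    exact Nat.add_le_add_right ih.2 _

theorem le_idx (hU : U ≤ U.comap s) (hinj : U.comap s ≤ U) (k : ℕ)
    (hf : Module.Finite K (X ⧸ (U ⊔ range (s ^ k)))) :
    k * finrank K (X ⧸ (U ⊔ range s)) ≤ finrank K (X ⧸ (U ⊔ range (s ^ k))) := by
  induction k with
  | zero => simp
  | succ k ih =>
    have hi : Function.Injective (mapQ _ _ s (idx_le_comap hU k)) := by
      rw [← ker_eq_bot, eq_bot_iff]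
      intro x hx
      obtain ⟨x, rfl⟩ := mkQ_surjective _ x
      rw [mem_ker, mkQ_apply, mapQ_apply, Quotient.mk_eq_zero, mem_sup] at hx
      obtain ⟨u, hu, _, ⟨y, rfl⟩, h⟩ := hx
      rw [mem_bot, mkQ_apply, Quotient.mk_eq_zero, mem_sup]
      refine ⟨x - (s ^ k) y, hinj ?_, _, ⟨y, rfl⟩, by simp⟩
      rw [mem_comap, map_sub, ← h, ← Module.End.mul_apply, ← pow_succ']
      simpa using hu
    haveI hf' : Module.Finite K (X ⧸ (U ⊔ range (s ^ k))) := Module.Finite.of_injective _ hi
    have h := add_le_finrank _ (mapQ _ _ LinearMap.id (idx_le_comap_id U s k)) hi (by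
      intro x
      obtain ⟨x, rfl⟩ := mkQ_surjective _ x
      exact ⟨Submodule.Quotient.mk x, rfl⟩) (by
      rintro _ ⟨x, rfl⟩
      obtain ⟨x, rfl⟩ := mkQ_surjective _ x
      rw [mem_ker, mkQ_apply, mapQ_apply, mapQ_apply, Quotient.mk_eq_zero]
      exact mem_sup_right ⟨x, rfl⟩)
    rw [add_mul, one_mul]
    exact (Nat.add_le_add_right (ih hf') _).trans h

end Index

section Seq

/-- Termwise action on sequences. -/
def sq : Module.End K X →* Module.End K (ℕ → X) where
  toFun φ := φ.compLeft ℕ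
  map_one' := by ext; rfl
  map_mul' _ _ := by ext; rfl

theorem sq_apply (φ : Module.End K X) (m : ℕ → X) (n : ℕ) : sq φ m n = φ (m n) := rfl

variable (K X) in
/-- The shift on sequences. -/
def sh : Module.End K (ℕ → X) where
  toFun m n := Nat.casesOn n 0 m
  map_add' a b := by ext n; cases n <;> simp
  map_smul' c a := by ext n; cases n <;> simp

theorem sh_zero (m : ℕ → X) : sh K X m 0 = 0 := rfl
theorem sh_succ (m : ℕ → X) (n : ℕ) : sh K X m (n + 1) = m n := rfl

theorem commute_sh (φ : Module.End K X) : Commute (sh K X) (sq φ) := by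
  refine LinearMap.ext fun m => funext fun n => ?_
  cases n
  · simp [sh_zero, sq_apply]
  · simp [sh_succ, sq_apply]

theorem sh_injective : Function.Injective (sh K X) := fun a b h =>
  funext fun n => congrFun h (n + 1)

variable (K) in
/-- The sequence concentrated in degree `0`. -/
def c0 : X →ₗ[K] (ℕ → X) := LinearMap.single K (fun _ : ℕ => X) 0

theorem c0_zero (x : X) : c0 K x 0 = x := by simp [c0]
theorem c0_succ (x : X) (n : ℕ) : c0 K x (n + 1) = 0 := by simp [c0]

theorem sq_c0 (φ : Module.End K X) (x : X) : sq φ (c0 K x) = c0 K (φ x) := by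
  ext n; cases n <;> simp [sq_apply, c0_zero, c0_succ]

theorem eq_c0_add (m : ℕ → X) : m = c0 K (m 0) + sh K X (fun n => m (n + 1)) := by
  ext n; cases n <;> simp [c0_zero, c0_succ, sh_zero, sh_succ]

/-- Evaluation of the shift at `δ`, truncated at `N`. -/
def evs (δ : Module.End K X) (N : ℕ) : (ℕ → X) →ₗ[K] X :=
  ∑ i ∈ Finset.range N, (δ ^ i) ∘ₗ LinearMap.proj i

theorem evs_apply (δ : Module.End K X) (N : ℕ) (m : ℕ → X) :
    evs δ N m = ∑ i ∈ Finset.range N, (δ ^ i) (m i) := by simp [evs]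

theorem evs_sh {δ : Module.End K X} {N : ℕ} (h : δ ^ (N + 1) = 0) (m : ℕ → X) :
    evs δ (N + 1) (sh K X m) = δ (evs δ (N + 1) m) := by
  rw [evs_apply, evs_apply, Finset.sum_range_succ', Finset.sum_range_succ, map_add, map_sum,
    sh_zero, map_zero, ← Module.End.mul_apply, ← pow_succ', h]
  simp only [sh_succ, pow_succ', Module.End.mul_apply, LinearMap.zero_apply]

theorem evs_sq {δ φ : Module.End K X} (h : Commute φ δ) (N : ℕ) (m : ℕ → X) :
    evs δ N (sq φ m) = φ (evs δ N m) := by
  rw [evs_apply, evs_apply, map_sum]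
  refine Finset.sum_congr rfl fun i _ => ?_
  rw [sq_apply, ← Module.End.mul_apply, ← (h.pow_right i).eq, Module.End.mul_apply]

theorem evs_c0 (δ : Module.End K X) (N : ℕ) (x : X) : evs δ (N + 1) (c0 K x) = x := by
  rw [evs_apply, Finset.sum_range_succ']
  simp [c0_zero, c0_succ]

/-- Perturbing an operator that is free up to one trivial block by `β * γ` does not lower the
number of free blocks. -/
theorem rk_le_rk_add [FiniteDimensional K X] {q : ℕ} [Fact (q + 1).Prime] [CharP K (q + 1)]
    {α β γ : Module.End K X} (hαβ : Commute α β) (hαγ : Commute α γ) (hβγ : Commute β γ)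
    (hα : α ^ (q + 1) = 0) (hβ : β ^ (q + 1) = 0) (hγ : γ ^ (q + 1) = 0) {e : X} (he : α e = 0)
    (he' : β e = 0) (hg : ker (α ^ q) ≤ range α ⊔ span K {e}) : rk α q ≤ rk (α + β * γ) q := by
  have hq : q ≠ 0 := by
    rintro rfl
    exact Nat.not_prime_one (Fact.out : (0 + 1).Prime)
  set t := sh K X with ht
  set T := sq α - t * sq β with hT
  have ctα : Commute t (sq α) := commute_sh α
  have ctβ : Commute t (sq β) := commute_sh β
  have ctγ : Commute t (sq γ) := commute_sh γ
  have ctT : Commute t T := ctα.sub_right ((Commute.refl t).mul_right ctβ)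
  have cγT : Commute (sq γ) T :=
    (hαγ.symm.map sq).sub_right (ctγ.symm.mul_right (hβγ.symm.map sq))
  have sq0 : ∀ φ : Module.End K X, φ ^ (q + 1) = 0 → sq φ ^ (q + 1) = 0 := fun φ h => by
    rw [← map_pow, h]; ext; rfl
  have hT0 : T ^ (q + 1) = 0 := by
    rw [hT, sub_pow_p (K := K) (q + 1) (ctα.symm.mul_right (hαβ.map sq)), ctβ.mul_pow, sq0 α hα,
      sq0 β hβ, mul_zero, sub_zero]
  set U := range (T ^ q) with hU
  have hst : ∀ s : Module.End K (ℕ → X), Commute s T → U ≤ U.comap s := by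
    rintro s hs _ ⟨m, rfl⟩
    exact ⟨s m, by rw [← Module.End.mul_apply, ← (hs.pow_right q).eq, Module.End.mul_apply]⟩
  have hT00 : ∀ (j : ℕ) (m : ℕ → X), (T ^ j) m 0 = (α ^ j) (m 0) := by
    intro j
    induction j with
    | zero => intro m; rfl
    | succ j ih =>
      intro m
      rw [pow_succ', pow_succ', Module.End.mul_apply, Module.End.mul_apply, ← ih]
      simp [hT, ht, sq_apply, sh_zero]
  have hTe : (T ^ q) (c0 K e) = 0 := by
    obtain ⟨i, rfl⟩ := Nat.exists_eq_add_one_of_ne_zero hq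
    rw [pow_succ, Module.End.mul_apply, hT, LinearMap.sub_apply, Module.End.mul_apply, sq_c0, sq_c0, he, he']
    simp
  have hinj : U.comap t ≤ U := by
    rintro m ⟨m', hm⟩
    have h0 : m' 0 ∈ ker (α ^ q) := by
      rw [mem_ker, ← hT00, hm]; rfl
    obtain ⟨_, ⟨x, rfl⟩, z, hz, h1⟩ := mem_sup.1 (hg h0)
    obtain ⟨c, rfl⟩ := mem_span_singleton.1 hz
    refine ⟨sq β (c0 K x) + fun n => m' (n + 1), sh_injective (K := K) ?_⟩
    have h2 : c0 K (α x) = T (c0 K x) + t (sq β (c0 K x)) := by
      rw [hT, LinearMap.sub_apply, Module.End.mul_apply, sq_c0, sub_add_cancel]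
    change t _ = t m
    rw [← hm]
    conv_rhs => rw [eq_c0_add (K := K) m', ← h1, map_add (c0 K), h2, map_smul]
    rw [← Module.End.mul_apply, (ctT.pow_right q).eq, Module.End.mul_apply]
    simp only [map_add, map_smul, hTe, smul_zero, add_zero]
    rw [← Module.End.mul_apply (T ^ q) T, ← pow_succ, hT0]
    simp [ht]
  -- the quotient by `t`
  have hs1 : Function.Surjective ((U ⊔ range t).mkQ ∘ₗ c0 K) := by
    intro y
    obtain ⟨m, rfl⟩ := mkQ_surjective _ y
    refine ⟨m 0, ?_⟩
    rw [comp_apply, mkQ_apply, mkQ_apply, Submodule.Quotient.eq]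
    refine mem_sup_right ⟨-fun n => m (n + 1), ?_⟩
    conv_rhs => rw [eq_c0_add (K := K) m]
    rw [map_neg, Pi.add_apply, c0_zero, sh_zero]; simp [ht]
  haveI : Module.Finite K ((ℕ → X) ⧸ (U ⊔ range t)) := Module.Finite.of_surjective _ hs1
  have e1 := add_le_finrank (range (α ^ q)).subtype _ (injective_subtype _) hs1 (by
    rw [range_subtype]
    rintro _ ⟨x, rfl⟩
    rw [mem_ker, comp_apply, mkQ_apply, Quotient.mk_eq_zero, mem_sup]
    refine ⟨_, ⟨c0 K x, rfl⟩, _, ⟨-fun n => (T ^ q) (c0 K x) (n + 1), rfl⟩, ?_⟩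
    conv_lhs => lhs; rw [eq_c0_add (K := K) ((T ^ q) (c0 K x)), hT00, c0_zero]
    rw [map_neg]; simp [ht])
  obtain ⟨f2, e2⟩ := idx_le (hst t ctT) (q + 1)
  set s := t + sq γ with hs
  have hsp : s ^ (q + 1) = t ^ (q + 1) := by
    rw [hs, add_pow_p (K := K) (q + 1) ctγ, sq0 γ hγ, add_zero]
  have hcs : Commute s T := ctT.add_left cγT
  have hpow : ∀ j : ℕ, U.comap (t ^ j) ≤ U := by
    intro j
    induction j with
    | zero => exact fun x hx => hx
    | succ j ih => exact fun x hx => hinj (ih (by rwa [mem_comap, pow_succ] at hx))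
  have hpow' : ∀ j : ℕ, U ≤ U.comap (s ^ j) := fun j => hst _ (hcs.pow_left j)
  have e3 := le_idx (hst s hcs) (fun x hx => hpow (q + 1) (by
    rw [← hsp, mem_comap, pow_succ]; exact hpow' q hx)) (q + 1) (by rwa [hsp])
  rw [hsp] at e3
  have e4 := Nat.le_of_mul_le_mul_left (e3.trans e2) (Nat.succ_pos q)
  haveI : Module.Finite K ((ℕ → X) ⧸ (U ⊔ range s)) := by
    haveI := f2
    rw [← hsp] at this
    exact Module.Finite.of_surjective (mapQ _ _ LinearMap.id (idx_le_comap_id U s q)) fun x => by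
      obtain ⟨x, rfl⟩ := mkQ_surjective _ x
      exact ⟨Submodule.Quotient.mk x, rfl⟩
  have hγ' : (-γ) ^ (q + 1) = 0 := by rw [neg_pow, hγ, mul_zero]
  have hev : ∀ m, evs (-γ) (q + 1) (T m) = (α + β * γ) (evs (-γ) (q + 1) m) := fun m => by
    rw [hT, LinearMap.sub_apply, map_sub, Module.End.mul_apply, evs_sh hγ', evs_sq hαγ.neg_right,
      evs_sq hβγ.neg_right, LinearMap.add_apply, hβγ.eq, Module.End.mul_apply, LinearMap.neg_apply, sub_neg_eq_add]
  have hev' : ∀ (j : ℕ) m, evs (-γ) (q + 1) ((T ^ j) m) = ((α + β * γ) ^ j) (evs (-γ) (q + 1) m) := by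
    intro j
    induction j with
    | zero => intro m; rfl
    | succ j ih => intro m; rw [pow_succ', pow_succ', Module.End.mul_apply, hev, ih]; rfl
  have hle : U ⊔ range s ≤ (range ((α + β * γ) ^ q)).comap (evs (-γ) (q + 1)) := by
    refine sup_le ?_ ?_
    · rintro _ ⟨m, rfl⟩
      exact ⟨_, (hev' q m).symm⟩
    · rintro _ ⟨m, rfl⟩
      rw [mem_comap, hs, LinearMap.add_apply, map_add, evs_sh hγ', evs_sq (Commute.refl γ).neg_right]
      simp
  have e5 : finrank K (X ⧸ range ((α + β * γ) ^ q)) ≤ finrank K ((ℕ → X) ⧸ (U ⊔ range s)) :=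
    LinearMap.finrank_le_finrank_of_surjective (f := mapQ _ _ _ hle) fun x => by
      obtain ⟨x, rfl⟩ := mkQ_surjective _ x
      exact ⟨Submodule.Quotient.mk (c0 K x), by rw [mapQ_apply, evs_c0, mkQ_apply]⟩
  have e6 := Submodule.finrank_quotient_add_finrank (range ((α + β * γ) ^ q))
  unfold rk
  omega

end Seq

end Cfsg.Lib.DGN
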