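import Cfsg.Agent.Lib.DGN.Cov
import Cfsg.Agent.Lib.Block.PerfIso

/-! Perfect isometries with positive signs: formal properties. -/

namespace Cfsg.Lib.DGN

open _root_.Cfsg.Lib.Block MonoidAlgebra Module Cfsg.Lib.Transfer Subgroup Cfsg.Lib.Char
open Cfsg.Lib.Modular Cfsg.Lib.Induce
open scoped ComplexConjugate

variable {G H : Type*} [Group G] [Group H] {p : ℕ}

section Prime
variable {M : Ideal AlgInt} [M.IsPrime]

variable (p M) in
/-- The kernel `∑ a i x * b i y` is perfect. -/
def PerfK {ι : Type*} (a : ι → G → ℂ) (b : ι → H → ℂ) : Prop :=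
  ∀ x y, (∑ᶠ i, a i x * b i y) / Nat.card (centralizer ({x} : Set G)) ∈ locRing M ∧
    (∑ᶠ i, a i x * b i y) / Nat.card (centralizer ({y} : Set H)) ∈ locRing M ∧
    (∑ᶠ i, a i x * b i y ≠ 0 → (p ∣ orderOf x ↔ p ∣ orderOf y))

theorem PerfK.symm {ι : Type*} {a : ι → G → ℂ} {b : ι → H → ℂ} (h : PerfK p M a b) :
    PerfK p M b a := fun y x => by
  obtain ⟨h1, h2, h3⟩ := h x y
  simp only [mul_comm (b _ _)]
  exact ⟨h2, h1, fun h0 => (h3 h0).symm⟩

theorem PerfK.comp {ι κ : Type*} {a : ι → G → ℂ} {b : ι → H → ℂ} (h : PerfK p M a b) (e : κ ≃ ι) :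
    PerfK p M (fun i => a (e i)) fun i => b (e i) := fun x y => by
  rw [finsum_comp_equiv e (f := fun i => a i x * b i y)]
  exact h x y

variable (p M) in
/-- There is a perfect isometry with positive signs between `B` and `c`. -/
def Perf (B : Set (IrrCharacter G)) (c : Set (IrrCharacter H)) : Prop :=
  ∃ u : c ≃ B, PerfK p M (fun i => (u i : G → ℂ)) fun i : c => (i : H → ℂ)

variable {B : Set (IrrCharacter G)} {c : Set (IrrCharacter H)}

theorem perf_of_index {ι : Type*} (u : ι ≃ B) (u' : ι ≃ c)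
    (h : PerfK p M (fun i => (u i : G → ℂ)) fun i => (u' i : H → ℂ)) : Perf p M B c :=
  ⟨u'.symm.trans u, by simpa using h.comp u'.symm⟩

theorem Perf.symm (h : Perf p M B c) : Perf p M c B := by
  obtain ⟨u, h⟩ := h
  exact perf_of_index (Equiv.refl _) u h.symm

theorem Perf.equiv {G' : Type*} [Group G'] (h : Perf p M B c) (e : G ≃* G') :
    Perf p M (irrEquiv e ⁻¹' B) c := by
  obtain ⟨u, h⟩ := h
  refine perf_of_index (u.trans ((irrEquiv e).subtypeEquiv fun _ => Iff.rfl).symm) (Equiv.refl _)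
    fun x y => ?_
  obtain ⟨x, rfl⟩ := e.surjective x
  have h1 : Nat.card (centralizer ({e x} : Set G')) = Nat.card (centralizer ({x} : Set G)) :=
    (Nat.card_congr (e.toEquiv.subtypeEquiv fun g => by
      simp only [mem_centralizer_singleton_iff, MulEquiv.toEquiv_eq_coe, EquivLike.coe_coe,
        ← map_mul, EmbeddingLike.apply_eq_iff_eq])).symm
  have h2 : ∀ i, ((u.trans ((irrEquiv e).subtypeEquiv (p := (· ∈ irrEquiv e ⁻¹' B)) (q := (· ∈ B))
      fun _ => Iff.rfl).symm) i : G' → ℂ) (e x) = (u i : G → ℂ) x := fun i => by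
    change (u i : G → ℂ) (e.symm (e x)) = _
    rw [e.symm_apply_apply]
  simp only [h1, h2, e.orderOf_eq]
  exact h x y

theorem indFun_div_mem [Fintype G] {T : Subgroup G} {φ : T → ℂ} (hφ : IsClassFunction T φ)
    (h : ∀ t, φ t / Nat.card (centralizer ({t} : Set T)) ∈ locRing M) (x : G) :
    indFun T φ x / Nat.card (centralizer ({x} : Set G)) ∈ locRing M := by
  classical
  haveI := Fintype.ofFinite (ConjClasses T)
  have h1 := ev_indFun T φ (cls_mem_fix (R := ℂ) x)
  rw [ev_cls (isClassFunction_indFun T φ), eq_sum_cls (res_mem_fix_of_top T.subtype (cls_mem_fix x)),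
    map_sum, Finset.mul_sum] at h1
  have h2 : indFun T φ x / Nat.card (centralizer ({x} : Set G)) =
      ∑ C : ConjClasses T, (res T.subtype (cls ℂ x)).coeff (crep C) *
        (φ (crep C) / Nat.card (centralizer ({crep C} : Set T))) := by
    have h3 : (Nat.card (centralizer ({x} : Set G)) : ℂ) * (centralizer ({x} : Set G)).index =
        Nat.card G := by exact_mod_cast card_mul_index _
    have h4 := card_ne_zero_complex (centralizer ({x} : Set G))
    refine mul_left_cancel₀ (card_ne_zero_complex G) ?_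
    rw [Finset.mul_sum]
    conv_lhs => rw [← h3, mul_comm, ← mul_assoc, div_mul_cancel₀ _ h4, mul_comm, h1]
    refine Finset.sum_congr rfl fun C _ => ?_
    have h5 : (Nat.card (centralizer ({crep C} : Set T)) : ℂ) *
        (centralizer ({crep C} : Set T)).index * T.index = Nat.card G := by
      exact_mod_cast (congrArg (· * T.index) (card_mul_index _)).trans (card_mul_index T)
    have h6 := card_ne_zero_complex (centralizer ({crep C} : Set T))
    rw [map_smul, ev_cls hφ, smul_eq_mul, ← h5]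
    field_simp
  rw [h2]
  exact sum_mem fun C _ => mul_mem (res_mem_SG _ (cls_mem_SG x) _) (h _)

theorem indFun_mem [Fintype G] {T : Subgroup G} {φ : T → ℂ} (hφ : IsClassFunction T φ) (d : ℂ)
    (h : ∀ t, φ t / d ∈ locRing M) (x : G) : indFun T φ x / d ∈ locRing M := by
  haveI := Fintype.ofFinite (G ⧸ T)
  rw [indFun_eq_sum_quotient T hφ, Finset.sum_div]
  refine sum_mem fun q _ => ?_
  by_cases hq : q.out⁻¹ * x * q.out ∈ T
  · rw [extendByZero_of_mem T φ hq]; exact h _
  · rw [extendByZero_of_not_mem T φ hq, zero_div]; exact zero_mem _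

theorem Perf.ind [Fintype G] [Finite H] {T : Subgroup G} {B' : Set (IrrCharacter T)}
    (h : Perf p M B' c) (v : B' ≃ B) (hv : ∀ ψ, (v ψ : G → ℂ) = indFun T (ψ : T → ℂ)) :
    Perf p M B c := by
  obtain ⟨u, h⟩ := h
  haveI := Fintype.ofFinite c
  refine ⟨u.trans v, fun x y => ?_⟩
  have h1 : ∑ᶠ i : c, ((u.trans v) i : G → ℂ) x * (i : H → ℂ) y =
      indFun T (∑ i : c, (i : H → ℂ) y • (u i : T → ℂ)) x := by
    rw [finsum_eq_sum_of_fintype, indFun_sum, Finset.sum_apply]
    refine Finset.sum_congr rfl fun i _ => ?_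
    rw [indFun_smul, Equiv.trans_apply, hv, mul_comm]; rfl
  have h2 : ∀ t, (∑ i : c, (i : H → ℂ) y • (u i : T → ℂ)) t =
      ∑ᶠ i : c, (u i : T → ℂ) t * (i : H → ℂ) y := fun t => by
    rw [finsum_eq_sum_of_fintype, Finset.sum_apply]
    exact Finset.sum_congr rfl fun i _ => mul_comm _ _
  have h3 : IsClassFunction T (∑ i : c, (i : H → ℂ) y • (u i : T → ℂ)) := fun g k => by
    simp only [Finset.sum_apply, Pi.smul_apply, (u _).1.2.isClassFunction g k]
  rw [h1]
  refine ⟨indFun_div_mem h3 (fun t => h2 t ▸ (h t y).1) x,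
    indFun_mem h3 _ (fun t => h2 t ▸ (h t y).2.1) x, fun h0 => ?_⟩
  by_contra h4
  refine h0 (indFun_eq_zero_of_forall' T _ x fun g hg => ?_)
  by_contra h5
  refine h4 ?_
  rw [← (h ⟨_, hg⟩ y).2.2 (h2 _ ▸ h5), ← orderOf_coe]
  exact Iff.of_eq (congrArg _ ((MulAut.conj g).orderOf_eq x).symm)

theorem Perf.card_eq (h : Perf p M B c) : Nat.card c = Nat.card B := Nat.card_congr h.choose

end Prime

variable [Fact p.Prime] {M : Ideal AlgInt} [Modular p M] {B : Set (IrrCharacter G)}
  {c : Set (IrrCharacter H)}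

theorem sum_reg_kernel [Fintype G] [Fintype H] (hB : IsPBlock M B)
    {ι : Type*} [Fintype ι] (u : ι ≃ B) (u' : ι ≃ c) :
    ∑ x, ∑ y, (if p ∣ orderOf x then 0 else (∑ i, (u i : G → ℂ) x * (u' i : H → ℂ) y) *
      conj (∑ i, (u i : G → ℂ) x * (u' i : H → ℂ) y)) =
      (Nat.card G : ℂ) * Nat.card H * blockRank p B := by
  classical
  have h1 : ∀ x, ∑ y, (∑ i, (u i : G → ℂ) x * (u' i : H → ℂ) y) *
      conj (∑ i, (u i : G → ℂ) x * (u' i : H → ℂ) y) =
      Nat.card H * ∑ i, (u i : G → ℂ) x * conj ((u i : G → ℂ) x) := fun x => by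
    have := card_mul_classInner (∑ i, (u i : G → ℂ) x • (u' i : H → ℂ))
      (∑ i, (u i : G → ℂ) x • (u' i : H → ℂ))
    simp only [Finset.sum_apply, Pi.smul_apply, smul_eq_mul] at this
    rw [← this, classInner_sum_left]
    congr 1
    refine Finset.sum_congr rfl fun i _ => ?_
    rw [classInner_smul_left, classInner_sum_right, Finset.sum_eq_single i]
    · rw [classInner_smul_right, (u' i).1.2.inner_self, mul_one]
    · intro j _ hj
      rw [classInner_smul_right, irr_inner_eq_ite, if_neg, mul_zero]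
      exact fun h => hj (u'.injective (Subtype.ext h)).symm
    · exact fun h => (h (Finset.mem_univ i)).elim
  rw [blockRank_eq_sum hB, Finset.sum_subtype (p := (· ∈ B)) (F := Fintype.ofFinite _) _
    (by simp), ← @Equiv.sum_comp _ _ _ _ (Fintype.ofFinite _) _ u, mul_right_comm, Finset.mul_sum]
  simp only [regInner_eq, mul_inv_cancel_left₀ (card_ne_zero_complex G)]
  rw [Finset.sum_comm (γ := ι), Finset.sum_mul]
  refine Finset.sum_congr rfl fun x _ => ?_
  split_ifs
  · simp
  · rw [h1, mul_comm]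

theorem Perf.blockRank_eq [Finite G] [Finite H] (h : Perf p M B c)
    (hB : IsPBlock M B) (hc : IsPBlock M c) : blockRank p c = blockRank p B := by
  obtain ⟨u, h⟩ := h
  haveI := Fintype.ofFinite G
  haveI := Fintype.ofFinite H
  haveI := Fintype.ofFinite c
  have h1 := sum_reg_kernel hB u (Equiv.refl c)
  have h2 := sum_reg_kernel hc (Equiv.refl c) u
  rw [Finset.sum_comm, mul_comm (Nat.card H : ℂ)] at h2
  refine Nat.cast_injective (R := ℂ) (mul_left_cancel₀
    (mul_ne_zero (card_ne_zero_complex G) (card_ne_zero_complex H)) ?_)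
  rw [← h1, ← h2]
  refine Finset.sum_congr rfl fun x _ => Finset.sum_congr rfl fun y _ => ?_
  have h3 := (h x y).2.2
  rw [finsum_eq_sum_of_fintype] at h3
  simp only [Equiv.refl_apply, mul_comm (((_ : c) : IrrCharacter H).1 y)]
  by_cases h4 : ∑ i : c, (u i : G → ℂ) x * (i : H → ℂ) y = 0
  · simp [h4]
  · simp only [h3 h4]

theorem Perf.exists_isometry [Finite G] [Finite H]
    (h : Perf p M B c) : ∃ I ε, IsPerfectIsometry p M c B I ε := by
  obtain ⟨u, h⟩ := h
  haveI := Fintype.ofFinite c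
  refine exists_perfect_of_index u (Equiv.refl c) (s := fun _ => 1) (s' := fun _ => 1)
    (fun _ => Or.inl rfl) (fun _ => Or.inl rfl) (fun x y => ?_) fun y x => ?_
  · obtain ⟨h1, -, h3⟩ := h x y
    rw [finsum_eq_sum_of_fintype] at h1 h3
    simp only [Int.cast_one, one_mul, Equiv.refl_apply]
    exact ⟨fun a b => by_contra fun h0 => a ((h3 h0).2 b), h1⟩
  · obtain ⟨h1, -, h3⟩ := h.symm y x
    rw [finsum_eq_sum_of_fintype] at h1 h3
    simp only [Int.cast_one, one_mul, Equiv.refl_apply]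
    exact ⟨fun a b => by_contra fun h0 => a ((h3 h0).2 b), h1⟩

end Cfsg.Lib.DGN
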