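import Cfsg.Agent.Lib.DGN.Mat

/-! The modular comparison of the actions on a block of a `p'`-group and on its Brauer image. -/

namespace Cfsg.Lib.DGN

open _root_.Cfsg.Lib.Block MonoidAlgebra Module Cfsg.Lib.Transfer Subgroup

variable {G : Type*} [Group G] [Finite G] {p : ℕ} [hp : Fact p.Prime] {M : Ideal AlgInt}
  [Modular p M] {Γ : Type*} [Group Γ] {π : Γ →* G} {N : Subgroup G} {f : (Res M)[G]}
  {s : Γ → (Res M)[G]}

/-- The action of `Γ` on the block `f k[N]` is induced by the multiplicative map `s`. -/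
structure Fac (π : Γ →* G) (N : Subgroup G) (f : (Res M)[G]) (s : Γ → (Res M)[G]) : Prop where
  sup : ∀ γ, s γ ∈ supp (Res M) N
  one : s 1 = f
  mul : ∀ γ δ, s (γ * δ) = s γ * s δ
  conj : ∀ γ, ∀ a ∈ Block.supp (Res M) N, s γ * a = cj (π γ) a * s γ

omit [Finite G] in
theorem Fac.mul_left (h : Fac π N f s) (γ : Γ) : f * s γ = s γ := by rw [← h.one, ← h.mul, one_mul]

omit [Finite G] in
theorem Fac.mul_right (h : Fac π N f s) (γ : Γ) : s γ * f = s γ := by rw [← h.one, ← h.mul, mul_one]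

omit [Finite G] in
theorem Fac.pow (h : Fac π N f s) (γ : Γ) (n : ℕ) : s (γ ^ (n + 1)) = s γ ^ (n + 1) := by
  induction n with
  | zero => rw [zero_add, pow_one, pow_one]
  | succ n ih => rw [pow_succ, h.mul, ih, ← pow_succ]

theorem Fac.cj_eq (h : Fac π N f s) (hf : IsBlkIdem N M f) {γ : Γ}
    (hγ : π γ ∈ normalizer (N : Set G)) : cj (π γ) f = f := by
  refine (hf.cj (conj_eq_self_iff.2 hγ)).eq_of_mul_ne_zero hf ?_
  have h1 := h.conj γ f hf.mem_cen.2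
  have h2 : s γ * f * s γ⁻¹ = f := by rw [h.mul_right, ← h.mul, mul_inv_cancel, h.one]
  rw [h1, mul_assoc, ← h.mul, mul_inv_cancel, h.one] at h2
  rw [h2]
  exact hf.ne_zero

theorem Fac.pow_p (h : Fac π N f s) (hf : IsBlkIdem N M f) (hN : ¬ p ∣ Nat.card N) {g : Γ} {a : ℕ}
    (ha : g ^ p ^ a = 1) (hg : π g ^ p ∈ centralizer (N : Set G)) : s g ^ p = f := by
  have h0 : s g ^ p = s (g ^ p) := by
    obtain ⟨q, rfl⟩ := Nat.exists_eq_add_one_of_ne_zero hp.out.ne_zero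
    rw [h.pow]
  obtain ⟨c, hc⟩ := exists_eq_smul hf hN (a := s (g ^ p)) ⟨fun n hn => (cj_eq_self_iff _ _).2 (by
    have := h.conj (g ^ p) _ (of_mem_supp hn)
    rw [of_apply, cj_single, map_pow, ← hg n hn, mul_inv_cancel_right] at this
    exact this.symm), h.sup _⟩ (h.mul_left _)
  obtain ⟨m, hm⟩ := Nat.exists_eq_add_one_of_ne_zero (pow_ne_zero a hp.out.ne_zero)
  have h1 := h.pow (g ^ p) m
  rw [← hm, ← pow_mul, mul_comm, pow_mul, ha, one_pow, h.one, hc, smul_pow, hm,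
    IsIdempotentElem.pow_succ_eq m hf.idem, ← hm] at h1
  have h2 : c ^ p ^ a = 1 := by
    by_contra h2
    rw [← sub_eq_zero, ← one_smul (Res M) f, smul_smul, mul_one, ← sub_smul, smul_eq_zero] at h1
    exact h1.elim (fun h => h2 (sub_eq_zero.1 h).symm) hf.ne_zero
  have h3 : c = 1 := by
    rw [← sub_eq_zero, ← one_pow (p ^ a), ← sub_pow_char_pow] at h2
    exact sub_eq_zero.1 (pow_eq_zero_iff (pow_ne_zero a hp.out.ne_zero) |>.1 h2)
  rw [h0, hc, h3, one_smul]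

theorem Fac.exists_hom {Γ₂ : Type*} [Group Γ₂] [Finite Γ₂] [Finite Γ] (π₂ : Γ₂ →* Γ)
    (h : Fac π N f s) (hf : IsBlkIdem N M f) (hN : ¬ p ∣ Nat.card N)
    (hπ : ∀ γ, π γ ∈ normalizer (N : Set G)) {R : Subgroup Γ} [R.Normal] (hR : IsPGroup p R)
    (hab : ∀ g ∈ R, ∀ g' ∈ R, g * g' = g' * g) (hRp : ∀ g ∈ R, π g ^ p ∈ centralizer (N : Set G))
    {t : Γ₂ → (Res M)[G]}
    (ht : Fac (π.comp π₂) (N ⊓ centralizer (R.map π : Set G)) (br (R.map π) f) t) :
    ∃ ν : Γ₂ →* Res M, ∀ δ (c : Res M), s (π₂ δ) * t δ⁻¹ = c • (f * br (R.map π) f) →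
      (∀ g ∈ R, π₂ δ * g = g * π₂ δ) → ν δ = c := by
  classical
  obtain ⟨q, rfl⟩ := Nat.exists_eq_add_one_of_ne_zero hp.out.ne_zero
  haveI := Fintype.ofFinite R
  set R' := R.map π with hR'
  set C := N ⊓ centralizer (R' : Set G) with hC
  have hR'p : IsPGroup (q + 1) R' := hR.map π
  have hfR : f ∈ fix (Res M) R' := by
    rintro _ ⟨g, -, rfl⟩
    exact h.cj_eq hf (hπ g)
  have hf' : IsBlkIdem C M (br R' f) := hf.br_of_not_dvd hN hR'p (by
    rintro _ ⟨g, -, rfl⟩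
    exact hπ g) hfR
  obtain ⟨ε, hεC, hε0, εε, fε, hε⟩ := exists_primitive hf'
    fun h0 => hN (h0.trans (card_dvd_of_le inf_le_left))
  have hCN : ∀ {a}, a ∈ supp (Res M) C → a ∈ supp (Res M) N := fun ha => supp_mono inf_le_left ha
  have hCR : ∀ {a}, a ∈ supp (Res M) C → a ∈ fix (Res M) R' := fun ha =>
    mem_fix_of_supp_centralizer (supp_mono inf_le_right ha)
  have hcf : ∀ {a}, a ∈ supp (Res M) N → a * f = f * a := fun ha =>
    (commute_of_supp_of_fix ha hf.mem_cen.1).eq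
  obtain ⟨e, he⟩ : ∃ e, e = f * ε := ⟨_, rfl⟩
  have heN : e ∈ supp (Res M) N := he ▸ mul_mem hf.mem_cen.2 (hCN hεC)
  have fe : f * e = e := by rw [he, ← mul_assoc, hf.idem]
  have ee : e * e = e := by
    rw [he, mul_assoc, ← mul_assoc ε, hcf (hCN hεC), mul_assoc, εε, ← he, fe]
  have hee : ∀ a b, e * b = b * e → a * e * (b * e) = a * b * e := fun a b hb => by
    rw [mul_assoc, ← mul_assoc e, hb, mul_assoc, ee, mul_assoc]
  have heR : e ∈ fix (Res M) R' := he ▸ mul_mem hfR (hCR hεC)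
  obtain ⟨n, Ψ, hΨ⟩ := exists_isCorner hf hN heN ee fe
  obtain ⟨Φ, hΦ⟩ := Ψ.exists_leftInverse_of_injective (LinearMap.ker_eq_bot.2 hΨ.inj)
  have hΨΦ : ∀ a ∈ supp (Res M) N, Ψ (Φ (e * a * e)) = e * a * e := fun a ha => by
    obtain ⟨T, hT⟩ := hΨ.surj a ha
    rw [← hT]
    exact congrArg Ψ (LinearMap.congr_fun hΦ T)
  have hΨΦ' : ∀ a ∈ supp (Res M) N, (∀ b ∈ supp (Res M) C, a * b = b * a) →
      Ψ (Φ (e * a * e)) = a * e ∧ e * a = a * e := fun a ha hb => by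
    have : e * a = a * e := by rw [he, mul_assoc, ← hb ε hεC, ← mul_assoc, ← hcf ha, mul_assoc]
    exact ⟨by rw [hΨΦ a ha, this, mul_assoc, ee], this⟩
  have eΨ : ∀ T, e * Ψ T = Ψ T := fun T => by rw [← hΨ.one, ← hΨ.mul, one_mul]
  have Ψe : ∀ T, Ψ T * e = Ψ T := fun T => by rw [← hΨ.one, ← hΨ.mul, mul_one]
  have hsC : ∀ g ∈ R, ∀ b ∈ supp (Res M) C, s g * b = b * s g := fun g hg b hb => by
    rw [h.conj g b (hCN hb), hCR hb _ ⟨g, hg, rfl⟩]
  let S : R → Matrix (Fin n) (Fin n) (Res M) := fun g => Φ (e * s g * e)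
  have hS : ∀ g : R, Ψ (S g) = s g * e := fun g => (hΨΦ' _ (h.sup _) (hsC g g.2)).1
  have hes : ∀ g : R, e * s g = s g * e := fun g => (hΨΦ' _ (h.sup _) (hsC g g.2)).2
  have hSn : ∀ (g : R) (m : ℕ), Ψ (S g ^ m) = s g ^ m * e := fun g m => by
    induction m with
    | zero => rw [pow_zero, pow_zero, hΨ.one, one_mul]
    | succ m ih => rw [pow_succ, hΨ.mul, ih, hS, hee _ _ (hes g), ← pow_succ]
  have hsp : ∀ g : R, s g ^ (q + 1) = f := fun g => by
    obtain ⟨a, ha⟩ := hR g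
    exact h.pow_p hf hN (a := a) (by exact_mod_cast congrArg Subtype.val ha) (hRp g g.2)
  have hcj : ∀ (g : R) T, Ψ (S g * T * S g ^ q) = cj (π g) (Ψ T) := fun g T => by
    rw [hΨ.mul, hΨ.mul, hS, hSn, mul_assoc (s g), eΨ, h.conj g _ (hΨ.supp T), mul_assoc,
      ← mul_assoc (s g), ← pow_succ', hsp, fe, ← heR _ ⟨g, g.2, rfl⟩, ← map_mul, Ψe]
  have hmem : ∀ g : R, π g ∈ centralizer (R' : Set G) := by
    rintro g _ ⟨g', hg', rfl⟩
    rw [← map_mul, ← map_mul, hab g' hg' g g.2]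
  let Ω := {x : G // x ∈ N ∧ x ∉ centralizer (R' : Set G)}
  have hΩ : ∀ (g : R) (x : G), ((π g)⁻¹ * x * π g ∈ N ∧ (π g)⁻¹ * x * π g ∉ centralizer (R' : Set G)) ↔
      (x ∈ N ∧ x ∉ centralizer (R' : Set G)) := fun g x => by
    rw [← mem_normalizer_iff''.1 (hπ g), mul_mem_cancel_right (hmem g),
      mul_mem_cancel_left (inv_mem (hmem g))]
  let P₀ : G →* Equiv.Perm G := (MulAut.toPerm G).comp MulAut.conj
  have hP₀ : ∀ g x : G, P₀ g⁻¹ x = g⁻¹ * x * g := fun g x =>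
    show g⁻¹ * x * g⁻¹⁻¹ = _ by rw [inv_inv]
  let P : R → Equiv.Perm Ω := fun g => (P₀ (π g)⁻¹).subtypePerm fun x => by
    rw [hP₀]; exact hΩ g x
  have hP : ∀ (g : R) (x : Ω), (P g x : G) = (π g)⁻¹ * x * π g := fun g x => hP₀ _ _
  let i : Matrix (Fin n) (Fin n) (Res M) →ₗ[Res M] (Ω → Res M) :=
    { toFun := fun T x => (Ψ T).coeff x
      map_add' := fun S T => by rw [map_add]; rfl
      map_smul' := fun c T => by rw [map_smul]; rfl }
  let xt : (Ω → Res M) →ₗ[Res M] (Res M)[G] :=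
    { toFun := fun w => ofFun fun x =>
        if hx : x ∈ N ∧ x ∉ centralizer (R' : Set G) then w ⟨x, hx⟩ else 0
      map_add' := fun v w => ext_coeff fun x => by
        rw [coeff_add']; simp only [coeff_ofFun]; split_ifs <;> simp
      map_smul' := fun c w => ext_coeff fun x => by
        rw [coeff_smul']; simp only [coeff_ofFun]; split_ifs <;> simp }
  have hxt : ∀ w x, (xt w).coeff x =
      if hx : x ∈ N ∧ x ∉ centralizer (R' : Set G) then w ⟨x, hx⟩ else 0 := fun _ _ => rfl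
  have hxN : ∀ w, xt w ∈ supp (Res M) N := fun w x hx => by rw [hxt, dif_neg fun h => hx h.1]
  let j : (Ω → Res M) →ₗ[Res M] Matrix (Fin n) (Fin n) (Res M) :=
    Φ ∘ₗ LinearMap.mulRight _ e ∘ₗ LinearMap.mulLeft _ e ∘ₗ xt
  have hj : ∀ w, Ψ (j w) = e * xt w * e := fun w => hΨΦ _ (hxN w)
  obtain ⟨ω, hω, hω'⟩ : ∃ g ∈ centralizer (R' : Set G), e.coeff g ≠ 0 := br_ne_zero_iff.1 (by
    rw [he, br_mul hR'p hfR (hCR hεC), show br R' ε = ε from
      trunc_eq_self_of_supp (supp_mono inf_le_right hεC), fε]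
    exact hε0)
  let τ : Matrix (Fin n) (Fin n) (Res M) →ₗ[Res M] Res M :=
    { toFun := fun T => (Ψ T).coeff ω
      map_add' := fun S T => by rw [map_add]; rfl
      map_smul' := fun c T => by rw [map_smul]; rfl }
  let r : Γ₂ → (Res M)[G] := fun δ => s (π₂ δ) * t δ⁻¹
  have hrN : ∀ δ, r δ ∈ supp (Res M) N := fun δ => mul_mem (h.sup _) (hCN (ht.sup _))
  have hrC : ∀ δ, ∀ b ∈ supp (Res M) C, r δ * b = b * r δ := fun δ b hb => by
    simp only [r]
    rw [mul_assoc, ht.conj _ b hb, ← mul_assoc, MonoidHom.comp_apply,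
      h.conj _ _ (cj_mem_supp_of_mem_normalizer (hCN hb) (hπ _)), ← cj_mul, ← map_mul, ← map_mul, mul_inv_cancel, map_one,
      map_one, cj_one, mul_assoc]
  have hr : ∀ δ, Ψ (Φ (e * r δ * e)) = r δ * e := fun δ => (hΨΦ' _ (hrN δ) (hrC δ)).1
  have her : ∀ δ, e * r δ = r δ * e := fun δ => (hΨΦ' _ (hrN δ) (hrC δ)).2
  have ffe : f * br R' f * e = e := by
    rw [mul_assoc, he, ← mul_assoc (br R' f), hcf (hCN hf'.mem_cen.2), mul_assoc, fε, ← he, fe]
  let ρ : Γ₂ →* Matrix (Fin n) (Fin n) (Res M) :=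
    { toFun := fun δ => Φ (e * r δ * e)
      map_one' := hΨ.inj (by
        rw [hr, hΨ.one]
        simp only [r]
        rw [map_one, inv_one, h.one, ht.one, ffe])
      map_mul' := fun δ δ' => hΨ.inj (by
        rw [hΨ.mul, hr, hr, hr, hee _ _ (her δ')]
        refine congrArg (· * e) ?_
        conv_rhs => rw [show r δ = s (π₂ δ) * t δ⁻¹ from rfl, mul_assoc, ← hrC δ' _ (ht.sup _)]
        simp only [r]
        rw [map_mul, mul_inv_rev, h.mul, ht.mul]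
        simp only [mul_assoc]) }
  have hρ : ∀ δ, Ψ (ρ δ) = r δ * e := hr
  refine Exists.elim (core (q := q) S (fun g g' => hΨ.inj (a₁ := S g * S g') (a₂ := S g' * S g) ?_) (fun g => hΨ.inj ?_) P
    (fun g g' => ?_) (fun g => ?_) (fun x => ?_) i j (fun g T => ?_) (fun g w => hΨ.inj ?_)
    (fun T => ?_) τ (fun g T => ?_) ?_
    ((MulAut.toPerm R).comp ((MulAut.conjNormal (H := R)).comp π₂)) ρ (fun δ g => hΨ.inj ?_))
    fun ν hν => ?_
  rotate_right
  · refine ⟨ν, fun δ c hc hδ => hν δ c (hΨ.inj ?_) (Equiv.ext fun g => Subtype.ext ?_)⟩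
    · rw [hρ, map_smul, hΨ.one, show r δ = _ from hc, smul_mul_assoc, ffe]
    · change π₂ δ * g * (π₂ δ)⁻¹ = g
      rw [hδ g g.2, mul_inv_cancel_right]
  · rw [hΨ.mul, hΨ.mul, hS, hS, hee _ _ (hes g), hee _ _ (hes g'), ← h.mul, ← h.mul,
      hab g g.2 g' g'.2]
  · rw [hSn, hsp, fe, hΨ.one]
  · refine Equiv.ext fun x => Subtype.ext ?_
    simp only [Equiv.Perm.mul_apply, hP]
    have := hmem g (π g') ⟨g', g'.2, rfl⟩
    have h2 : (π g)⁻¹ * (π g')⁻¹ = (π g')⁻¹ * (π g)⁻¹ := by rw [← mul_inv_rev, this, mul_inv_rev]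
    simp only [← mul_assoc, h2]
    rw [mul_assoc, this, ← mul_assoc]
  · refine Equiv.ext fun x => Subtype.ext ?_
    rw [Equiv.Perm.subtypePerm_pow]
    change (P₀ (π g)⁻¹ ^ (q + 1)) x = x
    rw [← map_pow, inv_pow, hP₀, mul_assoc, hRp g g.2 x x.2.1, inv_mul_cancel_left]
  · by_contra! h0
    refine x.2.2 ?_
    rintro _ ⟨g, hg, rfl⟩
    have := congrArg Subtype.val (h0 ⟨g, hg⟩)
    rw [hP, mul_assoc, inv_mul_eq_iff_eq_mul] at this
    exact this.symm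
  · funext x
    change (Ψ _).coeff x = (Ψ T).coeff (P g x)
    rw [hcj, coeff_cj, hP]
  · rw [hcj, hj, hj, map_mul, map_mul, heR _ ⟨g, g.2, rfl⟩]
    congr 2
    refine ext_coeff fun x => ?_
    rw [coeff_cj, hxt, hxt]
    by_cases hx : x ∈ N ∧ x ∉ centralizer (R' : Set G)
    · rw [dif_pos hx, dif_pos ((hΩ g x).2 hx), pm_apply]
      exact congrArg w (Subtype.ext (hP _ _))
    · rw [dif_neg hx, dif_neg (mt (hΩ g x).1 hx)]
  · obtain ⟨c, hc⟩ := hε _ (trunc_mem_supp C (Ψ T))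
    refine ⟨c, hΨ.inj ?_⟩
    have h1 : Ψ T = trunc C (Ψ T) + xt (i T) := ext_coeff fun x => by
      rw [coeff_add', coeff_trunc, hxt]
      by_cases hx : x ∈ N
      · by_cases hx' : x ∈ centralizer (R' : Set G)
        · rw [if_pos (show x ∈ (C : Set G) from ⟨hx, hx'⟩), dif_neg fun h => h.2 hx', add_zero]
        · rw [if_neg fun h : x ∈ (C : Set G) => hx' h.2, dif_pos ⟨hx, hx'⟩, zero_add]; rfl
      · rw [if_neg fun h : x ∈ (C : Set G) => hx h.1, dif_neg fun h => hx h.1, add_zero,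
          hΨ.supp T x hx]
    rw [map_add, map_smul, hΨ.one, hj]
    conv_lhs => rw [← eΨ T, ← Ψe T, h1, ← mul_assoc, mul_add, add_mul]
    congr 1
    conv_lhs => rw [he, ← mul_assoc, mul_assoc f, mul_assoc f,
      hcf (mul_mem (hCN hεC) (hCN (trunc_mem_supp C _))), ← mul_assoc f, hf.idem, mul_assoc, hc]
    rw [mul_smul_comm, he]
  · change (Ψ _).coeff ω = (Ψ T).coeff ω
    rw [hcj, coeff_cj, mul_assoc, ← hω _ ⟨g, g.2, rfl⟩, inv_mul_cancel_left]
  · change (Ψ 1).coeff ω ≠ 0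
    rwa [hΨ.one]
  · rw [hΨ.mul, hΨ.mul, hρ, hS, hS, hee _ _ (hes g), hee _ _ (her δ)]
    refine congrArg (· * e) ?_
    simp only [r]
    rw [mul_assoc, ← hsC g g.2 _ (ht.sup _), ← mul_assoc, ← mul_assoc, ← h.mul, ← h.mul]
    change _ = s (π₂ δ * g * (π₂ δ)⁻¹ * π₂ δ) * _
    rw [inv_mul_cancel_right]

end Cfsg.Lib.DGN
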